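import Cfsg.Agent.Lib.Helper59.TO.Defs

set_option autoImplicit false

namespace Cfsg.Agent.Lib.Helper59.TO

open TensorProduct Module QuadraticMap Cfsg.Agent.Lib.Helper59.TP
open Cfsg.Agent.Lib.Helper95 (stv stv_apply tvGrp isoGrp omG SPair sg sg_apply LR glEquiv)
open Cfsg.Agent.Lib.Helper49 (OG FP)
open Cfsg.Agent.Lib.Helper99.SpSub (Ind)

variable {F U W : Type*} [Field F] [AddCommGroup U] [Module F U] [AddCommGroup W] [Module F W]
variable {BU : LinearMap.BilinForm F U} {BW : LinearMap.BilinForm F W}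
  {Q : QuadraticForm F (U ⊗[F] W)} {M : Subgroup ((U ⊗[F] W) ≃ₗ[F] (U ⊗[F] W))}

theorem omG_le : omG Q ≤ OG Q := by
  rintro _ ⟨x, _, rfl⟩
  exact x.2

theorem rW_apply (hW : BW.IsAlt) (w : W) (κ : F) (v : U ⊗[F] W) :
    rW U BW hW w κ v = v + κ • (ev U (psi BW w) v ⊗ₜ[F] w) := by
  induction v using TensorProduct.induction_on with
  | zero => simp
  | tmul u y =>
    rw [rW_tmul, ev_tmul, psi_apply, ← TensorProduct.smul_tmul', smul_smul]
  | add x y hx hy =>
    rw [map_add, hx, hy, map_add, TensorProduct.add_tmul, smul_add]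
    abel

theorem rW_inv (hW : BW.IsAlt) (w : W) (κ : F) : (rW U BW hW w κ)⁻¹ = rW U BW hW w (-κ) := by
  rw [inv_eq_iff_mul_eq_one]
  apply LinearEquiv.toLinearMap_injective
  apply TensorProduct.ext'
  intro u y
  simp only [LinearEquiv.coe_coe, LinearEquiv.mul_apply, rW_tmul, map_add, map_smul, hW w,
    mul_zero, zero_smul, add_zero, LinearEquiv.coe_one, id_eq]
  rw [add_assoc, ← add_smul]
  simp

theorem rU_inv (hU : BU.IsAlt) (z : U) (κ : F) : (rU W BU hU z κ)⁻¹ = rU W BU hU z (-κ) := by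
  rw [inv_eq_iff_mul_eq_one]
  apply LinearEquiv.toLinearMap_injective
  apply TensorProduct.ext'
  intro u y
  simp only [LinearEquiv.coe_coe, LinearEquiv.mul_apply, rU_tmul, map_add, map_smul, hU z,
    mul_zero, zero_smul, add_zero, LinearEquiv.coe_one, id_eq]
  rw [add_assoc, ← add_smul]
  simp

theorem rW_mem_NT (hW : BW.IsAlt) (w : W) (κ : F) : rW U BW hW w κ ∈ NT F U W :=
  congr_mem_NT _ _

theorem rU_mem_NT (hU : BU.IsAlt) (z : U) (κ : F) : rU W BU hU z κ ∈ NT F U W :=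
  congr_mem_NT _ _

theorem polar_tmul_right (c : Ctx BU BW Q) (x : U ⊗[F] W) (u : U) (w : W) :
    polar Q x (u ⊗ₜ[F] w) = BU (ev U (psi BW w) x) u := by
  induction x using TensorProduct.induction_on with
  | zero => simp
  | tmul u' y =>
    rw [c.pol, ev_tmul, psi_apply, map_smul, LinearMap.smul_apply, smul_eq_mul, mul_comm]
  | add x y hx hy =>
    rw [polar_add_left, hx, hy, map_add, map_add, LinearMap.add_apply]

theorem polar_tmul_left (c : Ctx BU BW Q) (x : U ⊗[F] W) (u : U) (w : W) :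
    polar Q (u ⊗ₜ[F] w) x = BU (ev U (psi BW w) x) u := by
  rw [polar_comm, polar_tmul_right c]

theorem spair_tmul (c : Ctx BU BW Q) {u u' : U} {w w' : W} (h : BU u u' * BW w w' = 0) :
    SPair Q (u ⊗ₜ[F] w) (u' ⊗ₜ[F] w') :=
  ⟨c.pure _ _, c.pure _ _, by rw [c.pol, h]⟩

theorem exists_flip_one {X : Type*} [AddCommGroup X] [Module F X] {B : LinearMap.BilinForm F X}
    (hB : B.IsAlt) (hnd : B.Nondegenerate) {w : X} (hw : w ≠ 0) : ∃ w', B w' w = 1 := by
  obtain ⟨t, ht⟩ := Cfsg.Agent.Lib.Helper99.SpSub.exists_one hnd hw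
  refine ⟨-t, ?_⟩
  rw [map_neg, LinearMap.neg_apply, ← hB.neg_eq, ht, neg_neg]

theorem ev_psi_surjective (c : Ctx BU BW Q) {w : W} (hw : w ≠ 0) :
    Function.Surjective (ev U (psi BW w)) := by
  obtain ⟨w', hw'⟩ := exists_flip_one c.altW c.ndW hw
  intro u
  exact ⟨u ⊗ₜ[F] w', by rw [ev_tmul, psi_apply, hw', one_smul]⟩

theorem exists_psi_eq {X : Type*} [AddCommGroup X] [Module F X] [FiniteDimensional F X]
    {B : LinearMap.BilinForm F X} (hnd : B.Nondegenerate) (ψ : Dual F X) :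
    ∃ c : X, ψ = psi B c := by
  have hinj : Function.Injective (B.flip : X →ₗ[F] Dual F X) := by
    rw [← LinearMap.ker_eq_bot, LinearMap.ker_eq_bot']
    intro x hx
    exact hnd.2 x (fun y => by
      have := LinearMap.congr_fun hx y
      simpa using this)
  have hsurj : Function.Surjective (B.flip : X →ₗ[F] Dual F X) :=
    (LinearMap.injective_iff_surjective_of_finrank_eq_finrank
      (Subspace.dual_finrank_eq).symm).1 hinj
  obtain ⟨c, hc⟩ := hsurj ψ
  exact ⟨c, hc.symm⟩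

theorem mem_span_of_ev_eq_zero (c : Ctx BU BW Q) {w : W} (hw : w ≠ 0) {x : U ⊗[F] W}
    (hx : ev U (psi BW w) x = 0) :
    x ∈ Submodule.span F {v | ∃ (u : U) (y : W), BW y w = 0 ∧ v = u ⊗ₜ[F] y} := by
  obtain ⟨w', hw'⟩ := exists_flip_one c.altW c.ndW hw
  have key : ∀ x : U ⊗[F] W, x - ev U (psi BW w) x ⊗ₜ[F] w' ∈
      Submodule.span F {v | ∃ (u : U) (y : W), BW y w = 0 ∧ v = u ⊗ₜ[F] y} := by
    intro x
    induction x using TensorProduct.induction_on with
    | zero => simp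
    | tmul u y =>
      apply Submodule.subset_span
      refine ⟨u, y - BW y w • w', ?_, ?_⟩
      · rw [map_sub, LinearMap.sub_apply, map_smul, LinearMap.smul_apply, hw']
        simp
      · rw [ev_tmul, psi_apply, TensorProduct.tmul_sub, TensorProduct.tmul_smul,
          TensorProduct.smul_tmul']
    | add x y hx hy =>
      have := Submodule.add_mem _ hx hy
      rw [map_add, TensorProduct.add_tmul]
      convert this using 1
      abel
  have := key x
  rwa [hx, TensorProduct.zero_tmul, sub_zero] at this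

theorem IsQ.apply (c : Ctx BU BW Q) {w : W} (hw : w ≠ 0) {α : U ⊗[F] W →ₗ[F] U}
    {e : (U ⊗[F] W) ≃ₗ[F] (U ⊗[F] W)} (h : IsQ BW w α e) {x : U ⊗[F] W}
    (hx : ev U (psi BW w) x = 0) : e x = x + α x ⊗ₜ[F] w := by
  have hmem := mem_span_of_ev_eq_zero c hw hx
  clear hx
  induction hmem using Submodule.span_induction with
  | mem v hv =>
    obtain ⟨u, y, hy, rfl⟩ := hv
    exact h.2 u y hy
  | zero => simp
  | add a b _ _ ha hb =>
    rw [map_add, ha, hb, map_add, TensorProduct.add_tmul]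
    abel
  | smul k a _ ha =>
    rw [map_smul, ha, map_smul, smul_add, TensorProduct.smul_tmul']

theorem mem_II_of_polar [FiniteDimensional F W] (c : Ctx BU BW Q) {w : W} (hw : w ≠ 0)
    {r : U ⊗[F] W} (h : ∀ (u : U) (y : W), BW y w = 0 → polar Q r (u ⊗ₜ[F] y) = 0) :
    r ∈ II F U w := by
  apply mem_II_of_ev hw
  intro ψ hψ
  obtain ⟨c', rfl⟩ := exists_psi_eq c.ndW ψ
  rw [psi_apply] at hψ
  have h0 : BW c' w = 0 := by rw [← c.altW.neg_eq, hψ, neg_zero]
  apply c.ndU.1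
  intro u
  rw [← polar_tmul_right c]
  exact h u c' h0

theorem LRM.of_apply {x y : U ⊗[F] W} (h : SPair Q x y) {e : (U ⊗[F] W) ≃ₗ[F] (U ⊗[F] W)}
    (he : e ∈ M) (hv : ∀ v, e v = v + polar Q x v • y - polar Q y v • x) : LRM Q M x y := by
  refine ⟨h, ?_⟩
  rw [Subgroup.mem_comap]
  have : (OG Q).subtype (sg h) = e := by
    apply LinearEquiv.ext
    intro v
    rw [hv]
    exact sg_apply h v
  rw [this]
  exact he

theorem LRM.exists_mem {x y : U ⊗[F] W} (h : LRM Q M x y) :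
    ∃ e ∈ M, e ∈ OG Q ∧ ∀ v, e v = v + polar Q x v • y - polar Q y v • x := by
  obtain ⟨hs, hm⟩ := h
  exact ⟨(sg hs).1, hm, (sg hs).2, fun v => sg_apply hs v⟩

theorem LRM.conj {x y : U ⊗[F] W} (h : LRM Q M x y) {g : (U ⊗[F] W) ≃ₗ[F] (U ⊗[F] W)}
    (hg : g ∈ M) (hgO : g ∈ OG Q) : LRM Q M (g x) (g y) :=
  LR.conj (M := M.comap (OG Q).subtype) h (g := ⟨g, hgO⟩) (by rw [Subgroup.mem_comap]; exact hg)

end Cfsg.Agent.Lib.Helper59.TO
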