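import Cfsg.Agent.Lib.Helper59.TO.Defs
import Cfsg.Agent.Lib.Helper59.TO.POL

set_option autoImplicit false

namespace Cfsg.Agent.Lib.Helper59.TO

open TensorProduct Module QuadraticMap Cfsg.Agent.Lib.Helper59.TP
open Cfsg.Agent.Lib.Helper95 (stv stv_apply tvGrp isoGrp omG SPair sg sg_apply LR glEquiv)
open Cfsg.Agent.Lib.Helper49 (OG FP)
open Cfsg.Agent.Lib.Helper99.SpSub (Ind)

variable {F U W : Type*} [Field F] [AddCommGroup U] [Module F U] [AddCommGroup W] [Module F W]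
variable {BU : LinearMap.BilinForm F U} {BW : LinearMap.BilinForm F W}
  {Q : QuadraticForm F (U ⊗[F] W)} {M : Subgroup ((U ⊗[F] W) ≃ₗ[F] (U ⊗[F] W))}

theorem exists_A_of_ZX (c : Ctx BU BW Q) (hMO : M ≤ OG Q) {w : W} (hw : w ≠ 0)
    {Λ : U ⊗[F] W →ₗ[F] U} (h : ZX M w Λ) :
    ∃ A : U →ₗ[F] U, Λ = A ∘ₗ ev U (psi BW w) ∧ (∀ p, BU p (A p) = 0) ∧
      ∀ p r, BU (A p) r = BU p (A r) := by
  obtain ⟨hΛw, e, heM, he⟩ := h
  have heO : e ∈ OG Q := hMO heM
  have hww : ∀ a b : U, polar Q (a ⊗ₜ[F] w) (b ⊗ₜ[F] w) = 0 := by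
    intro a b
    rw [c.pol, c.altW w, mul_zero]
  -- (*)
  have star : ∀ x y : U ⊗[F] W,
      BU (ev U (psi BW w) x) (Λ y) + BU (ev U (psi BW w) y) (Λ x) = 0 := by
    intro x y
    have h1 := Cfsg.Agent.Lib.Helper49.OG_polar Q ⟨e, heO⟩ x y
    simp only [he] at h1
    rw [polar_add_left, polar_add_right, polar_add_right, hww, polar_tmul_right c,
      polar_tmul_left c] at h1
    linear_combination h1
  have hq : ∀ x : U ⊗[F] W, BU (ev U (psi BW w) x) (Λ x) = 0 := by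
    intro x
    have h1 : Q (e x) = Q x := heO x
    rw [he] at h1
    have h2 := polar_tmul_right c x (Λ x) w
    rw [polar, c.pure] at h2
    rw [← h2, h1]
    ring
  have hker : ∀ x : U ⊗[F] W, ev U (psi BW w) x = 0 → Λ x = 0 := by
    intro x hx
    apply c.ndU.1
    intro u
    obtain ⟨y, rfl⟩ := ev_psi_surjective c hw u
    have h1 := star x y
    rw [hx, map_zero, LinearMap.zero_apply, zero_add] at h1
    rw [← c.altU.neg_eq, h1, neg_zero]
  obtain ⟨w', hw'⟩ := exists_flip_one c.altW c.ndW hw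
  have hε : ∀ p : U, ev U (psi BW w) (p ⊗ₜ[F] w') = p := by
    intro p
    rw [ev_tmul, psi_apply, hw', one_smul]
  refine ⟨Λ ∘ₗ ins F U w', ?_, ?_, ?_⟩
  · refine LinearMap.ext fun v => ?_
    have h1 : ev U (psi BW w) (v - ev U (psi BW w) v ⊗ₜ[F] w') = 0 := by
      rw [map_sub, hε, sub_self]
    have h2 := hker _ h1
    rw [map_sub, sub_eq_zero] at h2
    rw [h2]
    rfl
  · intro p
    have h1 := hq (p ⊗ₜ[F] w')
    rw [hε] at h1
    exact h1
  · intro p r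
    have h1 := star (p ⊗ₜ[F] w') (r ⊗ₜ[F] w')
    rw [hε, hε] at h1
    show BU (Λ (p ⊗ₜ[F] w')) r = BU p (Λ (r ⊗ₜ[F] w'))
    have h2 := c.altU.neg_eq (Λ (p ⊗ₜ[F] w')) r
    linear_combination -h1 - h2

end Cfsg.Agent.Lib.Helper59.TO
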