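import Cfsg.Agent.Lib.Helper59.TO.Defs
import Cfsg.Agent.Lib.Helper59.TO.POL
import Cfsg.Agent.Lib.Helper59.TO.C1A

set_option autoImplicit false

namespace Cfsg.Agent.Lib.Helper59.TO

open TensorProduct Module QuadraticMap Cfsg.Agent.Lib.Helper59.TP
open Cfsg.Agent.Lib.Helper95 (stv stv_apply tvGrp isoGrp omG SPair sg sg_apply LR glEquiv)
open Cfsg.Agent.Lib.Helper49 (OG FP)
open Cfsg.Agent.Lib.Helper99.SpSub (Ind)

variable {F U W : Type*} [Field F] [AddCommGroup U] [Module F U] [AddCommGroup W] [Module F W]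
variable {BU : LinearMap.BilinForm F U} {BW : LinearMap.BilinForm F W}
  {Q : QuadraticForm F (U ⊗[F] W)} {M : Subgroup ((U ⊗[F] W) ≃ₗ[F] (U ⊗[F] W))}

theorem c1b_ev_symm (ψ : Dual F W) (t : U ≃ₗ[F] U) (v : U ⊗[F] W) :
    ev U ψ ((TensorProduct.congr t (LinearEquiv.refl F W)).symm v) = t.symm (ev U ψ v) := by
  induction v using TensorProduct.induction_on with
  | zero => simp
  | add x y hx hy => rw [map_add, map_add, hx, hy, map_add, map_add]
  | tmul u y =>
    have h1 : (TensorProduct.congr t (LinearEquiv.refl F W)).symm (u ⊗ₜ[F] y) = t.symm u ⊗ₜ[F] y := by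
      rw [LinearEquiv.symm_apply_eq]
      simp
    rw [h1, ev_tmul, ev_tmul, map_smul]

theorem typeB_of_not_S1 (c : Ctx BU BW Q) (hMO : M ≤ OG Q) (hUs : HUs BU c.altU M)
    (h : ¬ S1 BW M) :
    ∃ (z y : U) (w : W), Ind F z y ∧ BU z y = 0 ∧ w ≠ 0 ∧
      LRM Q M (z ⊗ₜ[F] w) (y ⊗ₜ[F] w) := by
  unfold S1 at h
  push Not at h
  obtain ⟨w, Λ, hw, hZ, hne⟩ := h
  obtain ⟨A, hΛ, hA0, hAs⟩ := exists_A_of_ZX c hMO hw hZ
  have hns : ∀ κ : F, A ≠ κ • LinearMap.id := by
    intro κ hκ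
    apply hne κ
    rw [hΛ, hκ]
    refine LinearMap.ext fun v => ?_
    simp
  obtain ⟨z, hz⟩ := endu_exists_vec A hns
  have hz0 : z ≠ 0 := by
    rintro rfl
    apply hz 0
    simp
  have hind : Ind F z (A z) := (Cfsg.Agent.Lib.Helper99.SpSub.ind_of_ne_smul hz0 hz).symm
  refine ⟨z, A z, w, hind, hA0 z, hw, ?_⟩
  have hk : TensorProduct.congr (stv BU c.altU z 1) (LinearEquiv.refl F W) ∈ M := hUs z 1
  have hZ2 := (hZ.conj (stv BU c.altU z 1) (LinearEquiv.refl F W) hk).sub hZ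
  obtain ⟨-, e', he'M, he'⟩ := hZ2
  apply LR.symm
  apply LRM.of_apply (spair_tmul c (by rw [c.altW w, mul_zero])) he'M
  intro v
  rw [he' v, polar_tmul_left c, polar_tmul_left c]
  have hsymm : ∀ u : U, (stv BU c.altU z 1).symm u = u + (-1 * BU u z) • z := by
    intro u
    have h1 : (stv BU c.altU z 1).symm u = (stv BU c.altU z 1)⁻¹ u := rfl
    rw [h1, Cfsg.Agent.Lib.Helper95.stv_inv, stv_apply]
  have hAz : BU (A z) z = 0 := by
    rw [← c.altU.neg_eq, hA0, neg_zero]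
  have key : (((stv BU c.altU z 1).toLinearMap ∘ₗ Λ ∘ₗ
      (TensorProduct.congr (stv BU c.altU z 1) (LinearEquiv.refl F W)).symm.toLinearMap) - Λ) v
      = BU (ev U (psi BW w) v) (A z) • z - BU (ev U (psi BW w) v) z • A z := by
    rw [LinearMap.sub_apply, LinearMap.comp_apply, LinearMap.comp_apply, LinearEquiv.coe_coe,
      LinearEquiv.coe_coe, hΛ, LinearMap.comp_apply, LinearMap.comp_apply, c1b_ev_symm, hsymm]
    generalize ev U (psi BW w) v = u
    rw [map_add, map_smul, stv_apply, map_add, map_smul, LinearMap.add_apply,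
      LinearMap.smul_apply, hAz, hAs u z]
    simp only [smul_eq_mul, mul_zero, add_zero, one_mul, neg_mul, neg_smul]
    abel
  rw [key, TensorProduct.sub_tmul, TensorProduct.smul_tmul', TensorProduct.smul_tmul', add_sub_assoc]
  rfl

end Cfsg.Agent.Lib.Helper59.TO
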