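import Cfsg.Agent.Lib.Helper59.TO.Defs
import Cfsg.Agent.Lib.Helper59.TO.POL

/-! Ladder TO, rung C2A (written by helper62). -/

set_option autoImplicit false

namespace Cfsg.Agent.Lib.Helper59.TO

open TensorProduct Module QuadraticMap Cfsg.Agent.Lib.Helper59.TP
open Cfsg.Agent.Lib.Helper95 (stv stv_apply tvGrp isoGrp omG SPair sg sg_apply LR glEquiv)
open Cfsg.Agent.Lib.Helper49 (OG FP)
open Cfsg.Agent.Lib.Helper99.SpSub (Ind)

variable {F U W : Type*} [Field F] [AddCommGroup U] [Module F U] [AddCommGroup W] [Module F W]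
variable {BU : LinearMap.BilinForm F U} {BW : LinearMap.BilinForm F W}
  {Q : QuadraticForm F (U ⊗[F] W)} {M : Subgroup ((U ⊗[F] W) ≃ₗ[F] (U ⊗[F] W))}

theorem c2a_alpha_w {w : W} (hw : w ≠ 0) (hW : BW.IsAlt) {α : U ⊗[F] W →ₗ[F] U}
    {e : (U ⊗[F] W) ≃ₗ[F] (U ⊗[F] W)} (h : IsQ BW w α e) (u : U) : α (u ⊗ₜ[F] w) = 0 := by
  have h1 := h.1 u
  have h2 := h.2 u w (hW w)
  rw [h1] at h2
  have h3 : α (u ⊗ₜ[F] w) ⊗ₜ[F] w = (0 : U ⊗[F] W) := by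
    have := h2.symm
    rwa [add_eq_left] at this
  apply ins_injective (F := F) (U := U) hw
  rw [ins_apply, h3, map_zero]

/-- the commutator computation. -/
theorem c2a_comm (hW : BW.IsAlt) {w cc : W} (hcw : BW cc w = 0) {α : U ⊗[F] W →ₗ[F] U}
    {e : (U ⊗[F] W) ≃ₗ[F] (U ⊗[F] W)} (h : IsQ BW w α e) (κ : F) :
    IsQ BW w (κ • ((α ∘ₗ ins F U cc) ∘ₗ ev U (psi BW cc)))
      (e * rW U BW hW cc κ * e⁻¹ * (rW U BW hW cc κ)⁻¹) := by
  have hwc : BW w cc = 0 := by rw [← hW.neg_eq, hcw, neg_zero]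
  have hkw : ∀ (κ' : F) (u : U), rW U BW hW cc κ' (u ⊗ₜ[F] w) = u ⊗ₜ[F] w := by
    intro κ' u
    rw [rW_tmul, hwc, mul_zero, zero_smul, add_zero]
  have heinv : ∀ u : U, e⁻¹ (u ⊗ₜ[F] w) = u ⊗ₜ[F] w := by
    intro u
    have : e⁻¹ (e (u ⊗ₜ[F] w)) = u ⊗ₜ[F] w := e.symm_apply_apply _
    rwa [h.1 u] at this
  constructor
  · intro u
    rw [rW_inv]
    simp only [LinearEquiv.mul_apply]
    rw [hkw, heinv, hkw, h.1]
  · intro u y hy
    rw [rW_inv]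
    simp only [LinearEquiv.mul_apply]
    obtain ⟨x₁, hx₁⟩ : ∃ x₁, x₁ = u ⊗ₜ[F] y + (-κ * BW y cc) • u ⊗ₜ[F] cc := ⟨_, rfl⟩
    have h1 : rW U BW hW cc (-κ) (u ⊗ₜ[F] y) = x₁ := by rw [rW_tmul, hx₁]
    have h2 : e x₁ = x₁ + α x₁ ⊗ₜ[F] w := by
      rw [hx₁, map_add, map_smul, h.2 u y hy, h.2 u cc hcw, map_add, map_smul,
        TensorProduct.add_tmul, ← TensorProduct.smul_tmul']
      module
    have h3 : e⁻¹ x₁ = x₁ - α x₁ ⊗ₜ[F] w := by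
      have h4 : e (x₁ - α x₁ ⊗ₜ[F] w) = x₁ := by
        rw [map_sub, h2, h.1]
        abel
      have : e⁻¹ (e (x₁ - α x₁ ⊗ₜ[F] w)) = x₁ - α x₁ ⊗ₜ[F] w := e.symm_apply_apply _
      rwa [h4] at this
    have h5 : rW U BW hW cc κ x₁ = u ⊗ₜ[F] y := by
      rw [← h1]
      have : rW U BW hW cc κ ((rW U BW hW cc κ)⁻¹ (u ⊗ₜ[F] y)) = u ⊗ₜ[F] y :=
        (rW U BW hW cc κ).apply_symm_apply _
      rwa [rW_inv] at this
    rw [h1, h3, map_sub, h5, hkw, map_sub, h.2 u y hy, h.1]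
    have h6 : α x₁ = α (u ⊗ₜ[F] y) + (-κ * BW y cc) • α (u ⊗ₜ[F] cc) := by
      rw [hx₁, map_add, map_smul]
    rw [h6]
    simp only [LinearMap.smul_apply, LinearMap.comp_apply, ev_tmul, psi_apply, map_smul, ins_apply,
      TensorProduct.add_tmul, ← TensorProduct.smul_tmul']
    module

theorem exists_nonscalar_of_not_S2 [FiniteDimensional F W] (c : Ctx BU BW Q)
    (hWs : HWs BW c.altW M) (h : ¬ S2 BW M) :
    ∃ (w cc : W) (A : U →ₗ[F] U), Ind F w cc ∧ BW cc w = 0 ∧ (∀ k : F, A ≠ k • LinearMap.id) ∧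
      A ∈ SQ BW M w cc := by
  classical
  unfold S2 at h
  push Not at h
  obtain ⟨w, α, hw, ⟨e, heM, hQ⟩, hbad⟩ := h
  have hαw := c2a_alpha_w hw c.altW hQ
  -- (1)
  have h1 : ∃ cc : W, BW cc w = 0 ∧ ∀ k : F, α ∘ₗ ins F U cc ≠ k • LinearMap.id := by
    by_contra hcon
    push Not at hcon
    by_cases hU0 : ∀ u : U, u = 0
    · obtain ⟨u, y, -, hne⟩ := hbad 0 (by simp)
      exact hne ((hU0 _).trans (hU0 _).symm)
    push Not at hU0
    obtain ⟨u₀, hu₀⟩ := hU0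
    obtain ⟨t, ht⟩ := Cfsg.Agent.Lib.Helper99.SpSub.exists_one c.ndU hu₀
    obtain ⟨c₀, hc₀⟩ := exists_psi_eq c.ndW
      ((BU.flip t) ∘ₗ α ∘ₗ (TensorProduct.mk F U W u₀))
    have hlam : ∀ y, BU (α (u₀ ⊗ₜ[F] y)) t = BW y c₀ := by
      intro y
      have := congrArg (fun φ : Dual F W => φ y) hc₀
      simpa using this
    have hc₀w : BW c₀ w = 0 := by
      rw [← c.altW.neg_eq, ← hlam w, hαw]
      simp
    obtain ⟨u, y, hy, hne⟩ := hbad c₀ hc₀w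
    apply hne
    obtain ⟨k, hk⟩ := hcon y hy
    have hk' : ∀ u', α (u' ⊗ₜ[F] y) = k • u' := by
      intro u'
      have := congrArg (fun φ : U →ₗ[F] U => φ u') hk
      simpa using this
    rw [← hlam y, hk' u₀, hk' u, map_smul, LinearMap.smul_apply, ht, smul_eq_mul, mul_one]
  obtain ⟨cc, hcw, hns⟩ := h1
  refine ⟨w, cc, α ∘ₗ ins F U cc, ?_, hcw, hns, ?_⟩
  · refine (Cfsg.Agent.Lib.Helper99.SpSub.ind_of_ne_smul hw ?_).symm
    intro l hl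
    apply hns 0
    apply LinearMap.ext
    intro u
    simp only [LinearMap.comp_apply, ins_apply, zero_smul, LinearMap.zero_apply]
    rw [hl, TensorProduct.tmul_smul, map_smul, hαw, smul_zero]
  · intro κ
    exact ⟨_, M.mul_mem (M.mul_mem (M.mul_mem heM (hWs cc κ)) (M.inv_mem heM))
      (M.inv_mem (hWs cc κ)), c2a_comm c.altW hcw hQ κ⟩

end Cfsg.Agent.Lib.Helper59.TO
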