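import Cfsg.Agent.Lib.Helper59.TO.Defs
import Cfsg.Agent.Lib.Helper59.TO.POL

/-! Ladder TO, rung CLEAN (written by helper62). -/

set_option autoImplicit false

namespace Cfsg.Agent.Lib.Helper59.TO

open TensorProduct Module QuadraticMap Cfsg.Agent.Lib.Helper59.TP
open Cfsg.Agent.Lib.Helper95 (stv stv_apply tvGrp isoGrp omG SPair sg sg_apply LR glEquiv)
open Cfsg.Agent.Lib.Helper49 (OG FP)
open Cfsg.Agent.Lib.Helper99.SpSub (Ind)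

variable {F U W : Type*} [Field F] [AddCommGroup U] [Module F U] [AddCommGroup W] [Module F W]
variable {BU : LinearMap.BilinForm F U} {BW : LinearMap.BilinForm F W}
  {Q : QuadraticForm F (U ⊗[F] W)} {M : Subgroup ((U ⊗[F] W) ≃ₗ[F] (U ⊗[F] W))}

theorem clean_polar {g : (U ⊗[F] W) ≃ₗ[F] (U ⊗[F] W)} (hg : g ∈ OG Q) (x y : U ⊗[F] W) :
    polar Q (g x) (g y) = polar Q x y := Cfsg.Agent.Lib.Helper49.OG_polar Q ⟨g, hg⟩ x y

theorem sub_mem_II_of_fix [FiniteDimensional F W] (c : Ctx BU BW Q) {w : W} (hw : w ≠ 0)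
    {ζ : (U ⊗[F] W) ≃ₗ[F] (U ⊗[F] W)} (hζ : ζ ∈ OG Q)
    (hfix : ∀ (u : U) (y : W), BW y w = 0 → ζ (u ⊗ₜ[F] y) = u ⊗ₜ[F] y) (v : U ⊗[F] W) :
    ζ v - v ∈ II F U w := by
  apply mem_II_of_polar c hw
  intro u y hy
  rw [polar_sub_left]
  nth_rewrite 1 [← hfix u y hy]
  rw [clean_polar hζ, sub_self]

theorem clean [FiniteDimensional F W] (c : Ctx BU BW Q) {w : W} (hw : w ≠ 0)
    {e s k : (U ⊗[F] W) ≃ₗ[F] (U ⊗[F] W)} (he : e ∈ OG Q) (hs : s ∈ OG Q) (hk : k ∈ OG Q)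
    (hes : ∀ (u : U) (y : W), BW y w = 0 → e (u ⊗ₜ[F] y) = s (u ⊗ₜ[F] y))
    (hkI : ∀ u : U, k (u ⊗ₜ[F] w) = u ⊗ₜ[F] w) :
    e * k * e⁻¹ * k⁻¹ = s * k * s⁻¹ * k⁻¹ := by
  obtain ⟨ζ, hζdef⟩ : ∃ ζ, ζ = s⁻¹ * e := ⟨_, rfl⟩
  have hζ : ζ ∈ OG Q := hζdef ▸ (OG Q).mul_mem ((OG Q).inv_mem hs) he
  have hfix : ∀ (u : U) (y : W), BW y w = 0 → ζ (u ⊗ₜ[F] y) = u ⊗ₜ[F] y := by
    intro u y hy
    rw [hζdef, LinearEquiv.mul_apply, hes u y hy]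
    exact s.symm_apply_apply _
  have hfix2 : ∀ x, ev U (psi BW w) x = 0 → ζ x = x := by
    intro x hx
    have hmem := mem_span_of_ev_eq_zero c hw hx
    clear hx
    induction hmem using Submodule.span_induction with
    | mem v hv =>
      obtain ⟨u, y, hy, rfl⟩ := hv
      exact hfix u y hy
    | zero => simp
    | add a b _ _ ha hb => rw [map_add, ha, hb]
    | smul r a _ ha => rw [map_smul, ha]
  have hkinv : ∀ u : U, k⁻¹ (u ⊗ₜ[F] w) = u ⊗ₜ[F] w := by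
    intro u
    have : k⁻¹ (k (u ⊗ₜ[F] w)) = u ⊗ₜ[F] w := k.symm_apply_apply _
    rwa [hkI u] at this
  have hkO : k⁻¹ ∈ OG Q := (OG Q).inv_mem hk
  have hker : ∀ v, ev U (psi BW w) (k⁻¹ v - v) = 0 := by
    intro v
    apply c.ndU.1
    intro u
    rw [← polar_tmul_right c, polar_sub_left]
    nth_rewrite 1 [← hkinv u]
    rw [clean_polar hkO, sub_self]
  have hcomm : k * ζ * k⁻¹ = ζ := by
    apply LinearEquiv.ext
    intro v
    simp only [LinearEquiv.mul_apply]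
    have h1 : ζ (k⁻¹ v) - k⁻¹ v = ζ v - v := by
      have h2 := hfix2 _ (hker v)
      rw [map_sub] at h2
      have h3 : ζ (k⁻¹ v) - k⁻¹ v = (ζ (k⁻¹ v) - ζ v) - (k⁻¹ v - v) + (ζ v - v) := by abel
      rw [h3, h2, sub_self, zero_add]
    obtain ⟨ι, hι⟩ := (mem_II U).1 (sub_mem_II_of_fix c hw hζ hfix v)
    have h4 : ζ (k⁻¹ v) = k⁻¹ v + ι ⊗ₜ[F] w := by
      rw [hι, ← h1]; abel
    rw [h4, map_add, hkI]
    have h5 : k (k⁻¹ v) = v := k.apply_symm_apply _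
    rw [h5, hι]
    abel
  have he2 : e = s * ζ := by rw [hζdef]; group
  have h6 : ζ * k * ζ⁻¹ = k := by
    have h7 : k * ζ = ζ * k := by
      calc k * ζ = (k * ζ * k⁻¹) * k := by group
        _ = ζ * k := by rw [hcomm]
    calc ζ * k * ζ⁻¹ = (k * ζ) * ζ⁻¹ := by rw [h7]
      _ = k := by group
  calc e * k * e⁻¹ * k⁻¹ = s * (ζ * k * ζ⁻¹) * s⁻¹ * k⁻¹ := by rw [he2]; group
    _ = s * k * s⁻¹ * k⁻¹ := by rw [h6]

end Cfsg.Agent.Lib.Helper59.TO
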