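import Cfsg.Agent.Lib.Helper59.TO.POL
import Cfsg.Agent.Lib.Helper59.TO.CLEAN

set_option autoImplicit false
set_option linter.unusedSimpArgs false

namespace Cfsg.Agent.Lib.Helper59.TO

open TensorProduct Module QuadraticMap Cfsg.Agent.Lib.Helper59.TP
open Cfsg.Agent.Lib.Helper95 (stv stv_apply tvGrp isoGrp omG SPair sg sg_apply LR glEquiv)
open Cfsg.Agent.Lib.Helper49 (OG FP)
open Cfsg.Agent.Lib.Helper99.SpSub (Ind)
open scoped commutatorElement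

variable {F U W : Type*} [Field F] [AddCommGroup U] [Module F U] [AddCommGroup W] [Module F W]
variable {BU : LinearMap.BilinForm F U} {BW : LinearMap.BilinForm F W}
  {Q : QuadraticForm F (U ⊗[F] W)} {M : Subgroup ((U ⊗[F] W) ≃ₗ[F] (U ⊗[F] W))}

/-- `sg (a, b) K sg (a, b)⁻¹ K⁻¹ = sg (a, d)` when `K a = a`, `K b = b - d`. -/
theorem c2d1_comm {V : Type*} [AddCommGroup V] [Module F V] {Q : QuadraticForm F V} {a b d : V}
    (h : SPair Q a b) (K : OG Q) (hKa : K.1 a = a) (hKb : K.1 b = b - d) (h' : SPair Q a d)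
    (hbd : polar Q b d = 0) : sg h * K * (sg h)⁻¹ * K⁻¹ = sg h' := by
  have e1 : sg h * K * (sg h)⁻¹ * K⁻¹ = sg h * (K * sg h * K⁻¹)⁻¹ := by group
  rw [e1, Cfsg.Agent.Lib.Helper95.sg_conj, Cfsg.Agent.Lib.Helper95.sg_inv]
  apply Cfsg.Agent.Lib.Helper95.OG_ext
  intro x
  have hdb : polar Q d b = 0 := by rw [polar_comm]; exact hbd
  simp only [Subgroup.coe_mul, LinearEquiv.mul_apply, sg_apply, hKa, hKb, polar_add_right,
    polar_sub_right, polar_smul_right, polar_neg_left, polar_neg_right, polar_sub_left, h.uu, h.vv,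
    h.uv, h.vu, h'.uu, h'.vv, h'.uv, h'.vu, hbd, hdb, smul_eq_mul, mul_zero, neg_zero, add_zero,
    sub_zero, zero_add]
  module

theorem c2d1_alt0 {X : Type*} [AddCommGroup X] [Module F X] {B : LinearMap.BilinForm F X}
    (hB : B.IsAlt) {x y : X} (h : B x y = 0) : B y x = 0 := by
  rw [Cfsg.Agent.Lib.Helper95.alt_swap hB, h, neg_zero]

theorem typeA_of_EE [FiniteDimensional F W] (c : Ctx BU BW Q) (hMO : M ≤ OG Q)
    (hWs : HWs BW c.altW M) {w cc : W} {z : U} (hz : z ≠ 0) (hind : Ind F w cc)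
    (hcw : BW cc w = 0) (h : QX BW M w (EE BU z z ∘ₗ ev U (psi BW cc))) :
    ∃ (z₀ : U) (w₀ w₀' : W), z₀ ≠ 0 ∧ Ind F w₀ w₀' ∧ BW w₀ w₀' = 0 ∧
      LRM Q M (z₀ ⊗ₜ[F] w₀) (z₀ ⊗ₜ[F] w₀') := by
  obtain ⟨e, heM, heQ⟩ := h
  have hzz : BU z z = 0 := c.altU z
  obtain ⟨c', hc1, hc2⟩ := Cfsg.Agent.Lib.Helper99.SpSub.exists_one_zero c.ndW hind.symm
  have hs0 : SPair Q (z ⊗ₜ[F] w) (z ⊗ₜ[F] cc) := spair_tmul c (by rw [hzz, zero_mul])
  have hs : SPair Q (z ⊗ₜ[F] w) (-(z ⊗ₜ[F] cc)) := hs0.neg_right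
  have hs' : SPair Q (z ⊗ₜ[F] w) (z ⊗ₜ[F] c') := spair_tmul c (by rw [hzz, zero_mul])
  have hkM : rW U BW c.altW c' 1 ∈ M := hWs c' 1
  set K : OG Q := ⟨rW U BW c.altW c' 1, hMO hkM⟩ with hK
  have hes : ∀ (u : U) (y : W), BW y w = 0 → e (u ⊗ₜ[F] y) = (sg hs).1 (u ⊗ₜ[F] y) := by
    intro u y hy
    rw [heQ.2 u y hy, sg_apply, polar_neg_left, c.pol, c.pol, c2d1_alt0 c.altW hy]
    simp only [LinearMap.comp_apply, ev_tmul, psi_apply, EE_apply, map_smul, LinearMap.smul_apply,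
      smul_eq_mul, mul_zero, zero_smul, add_zero]
    rw [Cfsg.Agent.Lib.Helper95.alt_swap c.altU z u, Cfsg.Agent.Lib.Helper95.alt_swap c.altW cc y,
      ← TensorProduct.smul_tmul', ← TensorProduct.smul_tmul']
    module
  have hkI : ∀ u : U, (rW U BW c.altW c' 1) (u ⊗ₜ[F] w) = u ⊗ₜ[F] w := by
    intro u
    rw [rW_tmul, hc2]
    simp
  have hcl := clean c hind.left_ne (hMO heM) (sg hs).2 (hMO hkM) hes hkI
  have hmem : (sg hs).1 * rW U BW c.altW c' 1 * (sg hs).1⁻¹ * (rW U BW c.altW c' 1)⁻¹ ∈ M := by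
    rw [← hcl]
    exact M.mul_mem (M.mul_mem (M.mul_mem heM hkM) (M.inv_mem heM)) (M.inv_mem hkM)
  have hcomm : sg hs * K * (sg hs)⁻¹ * K⁻¹ = sg hs' := by
    apply c2d1_comm hs K (hkI z) _ hs'
    · rw [polar_neg_left, c.pol, hzz]
      simp
    · change (rW U BW c.altW c' 1) (-(z ⊗ₜ[F] cc)) = _
      rw [map_neg, rW_tmul, hc1]
      simp only [mul_one, one_smul]
      abel
  refine ⟨z, w, c', hz, ?_, hc2, hs', ?_⟩
  · exact Cfsg.Agent.Lib.Helper99.SpSub.ind_of_form (B := BW.flip) (t := cc) hind.left_ne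
      (by change BW cc c' ≠ 0; rw [hc1]; exact one_ne_zero) hcw
  · change (sg hs').1 ∈ M
    rw [← hcomm]
    exact hmem

end Cfsg.Agent.Lib.Helper59.TO
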