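import Cfsg.Agent.Lib.Helper59.TO.Defs

set_option autoImplicit false

namespace Cfsg.Agent.Lib.Helper59.TO

open TensorProduct Module QuadraticMap Cfsg.Agent.Lib.Helper59.TP
open Cfsg.Agent.Lib.Helper95 (stv stv_apply tvGrp isoGrp omG SPair sg sg_apply LR glEquiv)
open Cfsg.Agent.Lib.Helper49 (OG FP)
open Cfsg.Agent.Lib.Helper99.SpSub (Ind)
open scoped commutatorElement

variable {F U W : Type*} [Field F] [AddCommGroup U] [Module F U] [AddCommGroup W] [Module F W]
variable {BU : LinearMap.BilinForm F U} {BW : LinearMap.BilinForm F W}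
  {Q : QuadraticForm F (U ⊗[F] W)} {M : Subgroup ((U ⊗[F] W) ≃ₗ[F] (U ⊗[F] W))}

theorem sg_commute {V : Type*} [AddCommGroup V] [Module F V] {Q : QuadraticForm F V} {a b u v : V}
    (h₁ : SPair Q a b) (h₂ : SPair Q u v) (c1 : polar Q a u = 0) (c2 : polar Q a v = 0)
    (c3 : polar Q b u = 0) (c4 : polar Q b v = 0) : Commute (sg h₁) (sg h₂) := by
  apply Cfsg.Agent.Lib.Helper95.OG_ext
  intro x
  have c1' : polar Q u a = 0 := by rw [polar_comm]; exact c1
  have c2' : polar Q v a = 0 := by rw [polar_comm]; exact c2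
  have c3' : polar Q u b = 0 := by rw [polar_comm]; exact c3
  have c4' : polar Q v b = 0 := by rw [polar_comm]; exact c4
  simp only [Subgroup.coe_mul, LinearEquiv.mul_apply, sg_apply, polar_add_right, polar_sub_right,
    polar_smul_right, c1, c2, c3, c4, c1', c2', c3', c4', smul_eq_mul, mul_zero,
    add_zero, sub_zero]
  module

theorem comm_of_central {G : Type*} [Group G] {a b a' b' : G} (h1 : Commute b a) (h2 : Commute b a')
    (h3 : Commute b b') (h4 : Commute b' a) (h5 : Commute b' a') :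
    ⁅a * b, a' * b'⁆ = ⁅a, a'⁆ := by
  rw [commutatorElement_def, commutatorElement_def, mul_inv_rev, mul_inv_rev]
  -- a b a' b' b⁻¹ a⁻¹ b'⁻¹ a'⁻¹
  have e1 : a * b * (a' * b') * (b⁻¹ * a⁻¹) * (b'⁻¹ * a'⁻¹) =
      a * (b * a') * (b' * b⁻¹) * (a⁻¹ * b'⁻¹) * a'⁻¹ := by group
  rw [e1, h2.eq, (h3.symm.inv_right).eq, (h4.symm.inv_inv).eq]
  have e2 : a * (a' * b) * (b⁻¹ * b') * (b'⁻¹ * a⁻¹) * a'⁻¹ = a * a' * a⁻¹ * a'⁻¹ := by group
  exact e2

end Cfsg.Agent.Lib.Helper59.TO
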