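import Cfsg.Agent.Lib.Helper59.TO.Defs
import Cfsg.Agent.Lib.Helper59.TO.POL
import Cfsg.Agent.Lib.Helper59.TO.CLEAN
import Cfsg.Agent.Lib.Helper59.TO.SGC

/-! Ladder TO, rung C2D2A (written by helper62). -/

set_option autoImplicit false

namespace Cfsg.Agent.Lib.Helper59.TO

open TensorProduct Module QuadraticMap Cfsg.Agent.Lib.Helper59.TP
open Cfsg.Agent.Lib.Helper95 (stv stv_apply tvGrp isoGrp omG SPair sg sg_apply LR glEquiv)
open Cfsg.Agent.Lib.Helper49 (OG FP)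
open Cfsg.Agent.Lib.Helper99.SpSub (Ind)
open scoped commutatorElement

variable {F U W : Type*} [Field F] [AddCommGroup U] [Module F U] [AddCommGroup W] [Module F W]
variable {BU : LinearMap.BilinForm F U} {BW : LinearMap.BilinForm F W}
  {Q : QuadraticForm F (U ⊗[F] W)} {M : Subgroup ((U ⊗[F] W) ≃ₗ[F] (U ⊗[F] W))}

set_option maxHeartbeats 1000000 in
theorem exists_clean_pair [FiniteDimensional F W] (c : Ctx BU BW Q) (hMO : M ≤ OG Q)
    (hWs : HWs BW c.altW M) {w cc : W} {z z' : U} {β : F} (hzz : BU z z' = 0) (hind : Ind F w cc)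
    (hcw : BW cc w = 0) (h : QX BW M w ((EE BU z' z + β • EE BU z z') ∘ₗ ev U (psi BW cc))) :
    ∃ (c' : W) (h₁ : SPair Q (z' ⊗ₜ[F] w) (z ⊗ₜ[F] c')) (h₂ : SPair Q (z ⊗ₜ[F] w) (β • z' ⊗ₜ[F] c')),
      Ind F w c' ∧ BW w c' = 0 ∧ (sg h₁ * sg h₂).1 ∈ M := by
  obtain ⟨e, heM, hQ⟩ := h
  obtain ⟨c', hc1, hc0⟩ := Cfsg.Agent.Lib.Helper99.SpSub.exists_one_zero c.ndW hind.symm
  have hw : w ≠ 0 := hind.left_ne
  have hzz' : BU z' z = 0 := by rw [← c.altU.neg_eq, hzz, neg_zero]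
  have hwc : BW w cc = 0 := by rw [← c.altW.neg_eq, hcw, neg_zero]
  have hc1' : BW c' cc = -1 := by rw [← c.altW.neg_eq, hc1]
  have hc0' : BW c' w = 0 := by rw [← c.altW.neg_eq, hc0, neg_zero]
  have hz : BU z z = 0 := c.altU z
  have hz' : BU z' z' = 0 := c.altU z'
  have hww : BW w w = 0 := c.altW w
  have hcc : BW cc cc = 0 := c.altW cc
  have hc'c' : BW c' c' = 0 := c.altW c'
  have hs₁ : SPair Q (z' ⊗ₜ[F] w) (-(z ⊗ₜ[F] cc)) :=
    (spair_tmul c (by rw [hzz', zero_mul])).neg_right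
  have hs₂ : SPair Q (z ⊗ₜ[F] w) (-(β • z' ⊗ₜ[F] cc)) :=
    ((spair_tmul c (by rw [hzz, zero_mul])).smul_right β).neg_right
  have h₁ : SPair Q (z' ⊗ₜ[F] w) (z ⊗ₜ[F] c') := spair_tmul c (by rw [hzz', zero_mul])
  have h₂ : SPair Q (z ⊗ₜ[F] w) (β • z' ⊗ₜ[F] c') :=
    (spair_tmul c (by rw [hzz, zero_mul])).smul_right β
  refine ⟨c', h₁, h₂, Cfsg.Agent.Lib.Helper99.SpSub.ind_of_form (B := BW) (t := cc) hw
    (by rw [hc1']; simp) hwc, hc0, ?_⟩
  obtain ⟨k, hk⟩ : ∃ k, k = rW U BW c.altW c' 1 := ⟨_, rfl⟩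
  have hkM : k ∈ M := hk ▸ hWs c' 1
  have hes : ∀ (u : U) (y : W), BW y w = 0 → e (u ⊗ₜ[F] y) = (sg hs₁ * sg hs₂).1 (u ⊗ₜ[F] y) := by
    intro u y hy
    rw [hQ.2 u y hy]
    simp only [Subgroup.coe_mul, LinearEquiv.mul_apply, sg_apply, polar_add_right,
      polar_sub_right, polar_smul_right, polar_neg_right, polar_neg_left, polar_smul_left,
      polar_tmul_left c, ev_tmul, psi_apply, map_smul, map_add, map_neg, map_sub,
      LinearMap.smul_apply, LinearMap.add_apply, LinearMap.neg_apply, LinearMap.sub_apply,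
      LinearMap.comp_apply, EE_apply, smul_eq_mul, hy, hzz, hzz', hwc, hcw, hz, hz', hww, hcc,
      TensorProduct.add_tmul, ← TensorProduct.smul_tmul', zero_smul, mul_zero, zero_mul,
      LinearMap.zero_apply, map_zero, neg_zero, add_zero, sub_zero, smul_zero]
    module
  have hkI : ∀ u : U, k (u ⊗ₜ[F] w) = u ⊗ₜ[F] w := by
    intro u
    rw [hk, rW_tmul, hc0, mul_zero, zero_smul, add_zero]
  have hcl := clean c hw (hMO heM) (sg hs₁ * sg hs₂).2 (hMO hkM) hes hkI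
  have hmem : e * k * e⁻¹ * k⁻¹ ∈ M :=
    M.mul_mem (M.mul_mem (M.mul_mem heM hkM) (M.inv_mem heM)) (M.inv_mem hkM)
  rw [hcl] at hmem
  have hkey : (sg hs₁ * sg hs₂).1 * k = (sg h₁ * sg h₂).1 * k * (sg hs₁ * sg hs₂).1 := by
    apply LinearEquiv.ext
    intro x
    rw [hk]
    simp only [Subgroup.coe_mul, LinearEquiv.mul_apply, sg_apply, rW_apply, polar_add_right,
      polar_sub_right, polar_smul_right, polar_neg_right, polar_neg_left, polar_smul_left,
      polar_tmul_left c, ev_tmul, psi_apply, map_smul, map_add, map_neg, map_sub,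
      LinearMap.smul_apply, LinearMap.add_apply, LinearMap.neg_apply, LinearMap.sub_apply,
      smul_eq_mul, hzz, hzz', hwc, hcw, hz, hz', hww, hcc, hc1, hc1', hc0, hc0', hc'c',
      TensorProduct.add_tmul, TensorProduct.sub_tmul, TensorProduct.neg_tmul,
      TensorProduct.zero_tmul,
      ← TensorProduct.smul_tmul', zero_smul, mul_zero, zero_mul,
      LinearMap.zero_apply, map_zero, neg_zero, add_zero, sub_zero, smul_zero, one_smul, one_mul,
      mul_one]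
    module
  have hfin : (sg hs₁ * sg hs₂).1 * k * (sg hs₁ * sg hs₂).1⁻¹ * k⁻¹ = (sg h₁ * sg h₂).1 := by
    rw [hkey]
    group
  rw [hfin] at hmem
  exact hmem

end Cfsg.Agent.Lib.Helper59.TO
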