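import Cfsg.Agent.Lib.Helper59.TO.Defs
import Cfsg.Agent.Lib.Helper59.TO.POL

set_option autoImplicit false

namespace Cfsg.Agent.Lib.Helper59.TO

open TensorProduct Module QuadraticMap Cfsg.Agent.Lib.Helper59.TP
open Cfsg.Agent.Lib.Helper95 (stv stv_apply tvGrp isoGrp omG SPair sg sg_apply LR glEquiv)
open Cfsg.Agent.Lib.Helper49 (OG FP)
open Cfsg.Agent.Lib.Helper99.SpSub (Ind)

variable {F U W : Type*} [Field F] [AddCommGroup U] [Module F U] [AddCommGroup W] [Module F W]
variable {BU : LinearMap.BilinForm F U} {BW : LinearMap.BilinForm F W}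
  {Q : QuadraticForm F (U ⊗[F] W)} {M : Subgroup ((U ⊗[F] W) ≃ₗ[F] (U ⊗[F] W))}

theorem iso_polar (c : Ctx BU BW Q) (t : U ≃ₗ[F] U) (s : W ≃ₗ[F] W) (μ ν : F) (hμν : μ * ν = 1)
    (ht : ∀ x y, BU (t x) (t y) = μ * BU x y) (hs : ∀ x y, BW (s x) (s y) = ν * BW x y)
    (x y : U ⊗[F] W) :
    polar Q (TensorProduct.congr t s x) (TensorProduct.congr t s y) = polar Q x y := by
  induction x using TensorProduct.induction_on with
  | zero => simp
  | add x₁ x₂ h₁ h₂ => rw [map_add, polar_add_left, polar_add_left, h₁, h₂]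
  | tmul u w =>
    induction y using TensorProduct.induction_on with
    | zero => simp
    | add y₁ y₂ h₁ h₂ => rw [map_add, polar_add_right, polar_add_right, h₁, h₂]
    | tmul u' w' =>
      rw [TensorProduct.congr_tmul, TensorProduct.congr_tmul, c.pol, c.pol, ht, hs]
      linear_combination (BU u u' * BW w w') * hμν

theorem congr_mem_OG (c : Ctx BU BW Q) (t : U ≃ₗ[F] U) (s : W ≃ₗ[F] W) (μ ν : F) (hμν : μ * ν = 1)
    (ht : ∀ x y, BU (t x) (t y) = μ * BU x y) (hs : ∀ x y, BW (s x) (s y) = ν * BW x y) :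
    TensorProduct.congr t s ∈ OG Q := by
  rw [Cfsg.Agent.Lib.Helper49.mem_OG]
  intro x
  induction x using TensorProduct.induction_on with
  | zero => simp
  | tmul u w => rw [TensorProduct.congr_tmul, c.pure, c.pure]
  | add x y hx hy =>
    have h1 := iso_polar c t s μ ν hμν ht hs x y
    rw [polar, polar, ← map_add, hx, hy] at h1
    linear_combination h1

end Cfsg.Agent.Lib.Helper59.TO
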