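import Cfsg.Agent.Lib.Helper59.TO.POL
import Cfsg.Agent.Lib.Helper59.TO.ISO

set_option autoImplicit false

namespace Cfsg.Agent.Lib.Helper59.TO

open TensorProduct Module QuadraticMap Cfsg.Agent.Lib.Helper59.TP
open Cfsg.Agent.Lib.Helper95 (stv stv_apply tvGrp isoGrp omG SPair sg sg_apply LR glEquiv)
open Cfsg.Agent.Lib.Helper49 (OG FP)
open Cfsg.Agent.Lib.Helper99.SpSub (Ind)

variable {F U W : Type*} [Field F] [AddCommGroup U] [Module F U] [AddCommGroup W] [Module F W]
variable {BU : LinearMap.BilinForm F U} {BW : LinearMap.BilinForm F W}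
  {Q : QuadraticForm F (U ⊗[F] W)} {M : Subgroup ((U ⊗[F] W) ≃ₗ[F] (U ⊗[F] W))}

private lemma tv_congr_mul (t t' : U ≃ₗ[F] U) (s s' : W ≃ₗ[F] W) :
    TensorProduct.congr (t * t') (s * s') = TensorProduct.congr t s * TensorProduct.congr t' s' := by
  apply LinearEquiv.toLinearMap_injective
  apply TensorProduct.ext'
  intro u w
  simp [LinearEquiv.mul_apply]

private lemma tv_congr_one :
    TensorProduct.congr (1 : U ≃ₗ[F] U) (1 : W ≃ₗ[F] W) = 1 := by
  apply LinearEquiv.toLinearMap_injective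
  apply TensorProduct.ext'
  intro u w
  simp

private lemma tv_congr_inv (t : U ≃ₗ[F] U) (s : W ≃ₗ[F] W) :
    TensorProduct.congr t⁻¹ s⁻¹ = (TensorProduct.congr t s)⁻¹ := by
  rw [eq_inv_iff_mul_eq_one, ← tv_congr_mul, inv_mul_cancel, inv_mul_cancel, tv_congr_one]

theorem congr_mem_of_tvGrp (hU : BU.IsAlt) (hW : BW.IsAlt) (hUs : HUs BU hU M) (hWs : HWs BW hW M)
    {t : U ≃ₗ[F] U} {s : W ≃ₗ[F] W} (ht : t ∈ tvGrp BU hU ⊤) (hs : s ∈ tvGrp BW hW ⊤) :
    TensorProduct.congr t s ∈ M := by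
  have h1 : TensorProduct.congr t (1 : W ≃ₗ[F] W) ∈ M := by
    unfold tvGrp at ht
    induction ht using Subgroup.closure_induction with
    | mem x hx =>
      obtain ⟨v, _, c, rfl⟩ := hx
      exact hUs v c
    | one => rw [tv_congr_one]; exact M.one_mem
    | mul x y _ _ hx hy =>
      have := tv_congr_mul x y (1 : W ≃ₗ[F] W) 1
      rw [mul_one] at this
      rw [this]
      exact M.mul_mem hx hy
    | inv x _ hx =>
      have := tv_congr_inv x (1 : W ≃ₗ[F] W)
      rw [inv_one] at this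
      rw [this]
      exact M.inv_mem hx
  have h2 : TensorProduct.congr (1 : U ≃ₗ[F] U) s ∈ M := by
    unfold tvGrp at hs
    induction hs using Subgroup.closure_induction with
    | mem x hx =>
      obtain ⟨v, _, c, rfl⟩ := hx
      exact hWs v c
    | one => rw [tv_congr_one]; exact M.one_mem
    | mul x y _ _ hx hy =>
      have := tv_congr_mul (1 : U ≃ₗ[F] U) 1 x y
      rw [mul_one] at this
      rw [this]
      exact M.mul_mem hx hy
    | inv x _ hx =>
      have := tv_congr_inv (1 : U ≃ₗ[F] U) x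
      rw [inv_one] at this
      rw [this]
      exact M.inv_mem hx
  have := tv_congr_mul t 1 (1 : W ≃ₗ[F] W) s
  rw [mul_one, one_mul] at this
  rw [this]
  exact M.mul_mem h1 h2

theorem LRM.move (c : Ctx BU BW Q) (hUs : HUs BU c.altU M) (hWs : HWs BW c.altW M)
    {x y : U ⊗[F] W} (h : LRM Q M x y) {t : U ≃ₗ[F] U} {s : W ≃ₗ[F] W}
    (ht : t ∈ tvGrp BU c.altU ⊤) (hs : s ∈ tvGrp BW c.altW ⊤) :
    LRM Q M (TensorProduct.congr t s x) (TensorProduct.congr t s y) := by
  refine LRM.conj h (congr_mem_of_tvGrp c.altU c.altW hUs hWs ht hs)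
    (congr_mem_OG c t s 1 1 (one_mul 1) ?_ ?_)
  · intro a b
    rw [one_mul]
    exact Cfsg.Agent.Lib.Helper95.tvGrp_le_isoGrp c.altU ⊤ ht a b
  · intro a b
    rw [one_mul]
    exact Cfsg.Agent.Lib.Helper95.tvGrp_le_isoGrp c.altW ⊤ hs a b

end Cfsg.Agent.Lib.Helper59.TO
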