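import Cfsg.Agent.Lib.Helper59.TO.Defs
import Cfsg.Agent.Lib.Helper59.TO.POL
import Cfsg.Agent.Lib.Helper59.TO.ISO
import Cfsg.Agent.Lib.Helper59.TO.TV
import Cfsg.Agent.Lib.Helper59.TO.SGC

/-! Ladder TO, rung C2D2B (written by helper62). -/

set_option autoImplicit false

namespace Cfsg.Agent.Lib.Helper59.TO

open TensorProduct Module QuadraticMap Cfsg.Agent.Lib.Helper59.TP
open Cfsg.Agent.Lib.Helper95 (stv stv_apply tvGrp isoGrp omG SPair sg sg_apply LR glEquiv)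
open Cfsg.Agent.Lib.Helper49 (OG FP)
open Cfsg.Agent.Lib.Helper99.SpSub (Ind)
open scoped commutatorElement

variable {F U W : Type*} [Field F] [AddCommGroup U] [Module F U] [AddCommGroup W] [Module F W]
variable {BU : LinearMap.BilinForm F U} {BW : LinearMap.BilinForm F W}
  {Q : QuadraticForm F (U ⊗[F] W)} {M : Subgroup ((U ⊗[F] W) ≃ₗ[F] (U ⊗[F] W))}

/-- a vector outside `span {w}` orthogonal to three given vectors (one of them may be `w`). -/
theorem c2d2b_exists_perp [FiniteDimensional F W] (hb : 5 ≤ finrank F W) (w a b : W) (hw : w ≠ 0) :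
    ∃ w' : W, Ind F w w' ∧ BW w' w = 0 ∧ BW w' a = 0 ∧ BW w' b = 0 := by
  let φ : W →ₗ[F] F × F × F := (BW.flip w).prod ((BW.flip a).prod (BW.flip b))
  have h1 := LinearMap.finrank_range_add_finrank_ker φ
  have h2 : finrank F (LinearMap.range φ) ≤ 3 := by
    have := Submodule.finrank_le (LinearMap.range φ)
    simpa using this
  have h4 : 2 ≤ finrank F (LinearMap.ker φ) := by omega
  have h5 : ¬ LinearMap.ker φ ≤ Submodule.span F {w} := by
    intro hle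
    have h6 := Submodule.finrank_mono hle
    rw [finrank_span_singleton hw] at h6
    omega
  obtain ⟨w', hw', hns⟩ := SetLike.not_le_iff_exists.1 h5
  have h6 : φ w' = 0 := LinearMap.mem_ker.1 hw'
  refine ⟨w', (Cfsg.Agent.Lib.Helper99.SpSub.ind_of_ne_smul hw ?_).symm, congrArg Prod.fst h6,
    congrArg (fun p => p.2.1) h6, congrArg (fun p => p.2.2) h6⟩
  intro l hl
  exact hns (Submodule.mem_span_singleton.2 ⟨l, hl.symm⟩)

theorem c2d2b_sg_congr {V : Type*} [AddCommGroup V] [Module F V] {Q : QuadraticForm F V}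
    {a b a' b' : V} (h : SPair Q a b) (h' : SPair Q a' b') (ha : a = a') (hb : b = b') :
    sg h = sg h' := by
  subst ha
  subst hb
  rfl

set_option maxHeartbeats 1000000 in
theorem typeA_of_pair [FiniteDimensional F W] (hb : 5 ≤ finrank F W) (c : Ctx BU BW Q)
    (hMO : M ≤ OG Q) (hUs : HUs BU c.altU M) (hWs : HWs BW c.altW M) {w cc : W} {z z' : U} {β : F}
    (hzi : Ind F z z') (hzz : BU z z' = 0) (hind : Ind F w cc) (hcw : BW w cc = 0)
    (h₁ : SPair Q (z' ⊗ₜ[F] w) (z ⊗ₜ[F] cc)) (h₂ : SPair Q (z ⊗ₜ[F] w) (β • z' ⊗ₜ[F] cc))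
    (h : (sg h₁ * sg h₂).1 ∈ M) :
    ∃ (z₀ : U) (w₀ w₀' : W), z₀ ≠ 0 ∧ Ind F w₀ w₀' ∧ BW w₀ w₀' = 0 ∧
      LRM Q M (z₀ ⊗ₜ[F] w₀) (z₀ ⊗ₜ[F] w₀') := by
  have hw : w ≠ 0 := hind.left_ne
  have hz'0 : z' ≠ 0 := hzi.right_ne
  obtain ⟨zs, hzs1, hzs0⟩ := Cfsg.Agent.Lib.Helper99.SpSub.exists_one_zero c.ndU hzi
  obtain ⟨c2, hc21, hc20⟩ := Cfsg.Agent.Lib.Helper99.SpSub.exists_one_zero c.ndW hind.symm
  obtain ⟨w', hww'i, hw'w, hw'cc, hw'c2⟩ := c2d2b_exists_perp (BW := BW) hb w cc c2 hw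
  have hzz' : BU z' z = 0 := by rw [← c.altU.neg_eq, hzz, neg_zero]
  have hzs1' : BU zs z = -1 := by rw [← c.altU.neg_eq, hzs1]
  have hzs0' : BU zs z' = 0 := by rw [← c.altU.neg_eq, hzs0, neg_zero]
  have hcw' : BW cc w = 0 := by rw [← c.altW.neg_eq, hcw, neg_zero]
  have hc21' : BW c2 cc = -1 := by rw [← c.altW.neg_eq, hc21]
  have hc20' : BW c2 w = 0 := by rw [← c.altW.neg_eq, hc20, neg_zero]
  have hww' : BW w w' = 0 := by rw [← c.altW.neg_eq, hw'w, neg_zero]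
  have hccw' : BW cc w' = 0 := by rw [← c.altW.neg_eq, hw'cc, neg_zero]
  have hc2w' : BW c2 w' = 0 := by rw [← c.altW.neg_eq, hw'c2, neg_zero]
  have hz : BU z z = 0 := c.altU z
  have hz' : BU z' z' = 0 := c.altU z'
  have hzszs : BU zs zs = 0 := c.altU zs
  have hindU : Ind F z' zs :=
    Cfsg.Agent.Lib.Helper99.SpSub.ind_of_form (B := BU) (t := z) hz'0 (by rw [hzs1']; simp) hzz'
  have hindW : Ind F w' c2 :=
    Cfsg.Agent.Lib.Helper99.SpSub.ind_of_form (B := BW) (t := cc) hww'i.right_ne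
      (by rw [hc21']; simp) hw'cc
  obtain ⟨t, ht, htz', htz⟩ :=
    Cfsg.Agent.Lib.Helper99.SpSub.trans_two c.altU c.ndU hzi.symm hzz' hindU hzs0
  obtain ⟨s, hs, hsw, hscc⟩ :=
    Cfsg.Agent.Lib.Helper99.SpSub.trans_two c.altW c.ndW hind hcw hindW hw'c2
  have hHM : TensorProduct.congr t s ∈ M := congr_mem_of_tvGrp c.altU c.altW hUs hWs ht hs
  obtain ⟨H, hH⟩ : ∃ H : OG Q, H.1 = TensorProduct.congr t s := ⟨⟨_, hMO hHM⟩, rfl⟩
  have k₁ : SPair Q (z' ⊗ₜ[F] w') (zs ⊗ₜ[F] c2) := spair_tmul c (by rw [hzs0, zero_mul])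
  have k₂ : SPair Q (zs ⊗ₜ[F] w') (β • z' ⊗ₜ[F] c2) :=
    (spair_tmul c (by rw [hzs0', zero_mul])).smul_right β
  have e₁ : H * sg h₁ * H⁻¹ = sg k₁ := by
    rw [Cfsg.Agent.Lib.Helper95.sg_conj]
    apply c2d2b_sg_congr
    · rw [hH, TensorProduct.congr_tmul, htz', hsw]
    · rw [hH, TensorProduct.congr_tmul, htz, hscc]
  have e₂ : H * sg h₂ * H⁻¹ = sg k₂ := by
    rw [Cfsg.Agent.Lib.Helper95.sg_conj]
    apply c2d2b_sg_congr
    · rw [hH, TensorProduct.congr_tmul, htz, hsw]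
    · rw [hH, map_smul, TensorProduct.congr_tmul, htz', hscc]
  have e₃ : H * (sg h₁ * sg h₂) * H⁻¹ = sg k₁ * sg k₂ := by
    rw [← e₁, ← e₂]
    group
  have q1 : Commute (sg h₂) (sg h₁) := by
    apply sg_commute <;>
      simp [polar_smul_left, polar_smul_right, c.pol, hzz, hzz', hz, hz']
  have q2 : Commute (sg h₂) (sg k₁) := by
    apply sg_commute <;>
      simp [polar_smul_left, polar_smul_right, c.pol, hzz, hzz', hz, hz', hzs0, hc20]
  have q3 : Commute (sg h₂) (sg k₂) := by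
    apply sg_commute <;>
      simp [polar_smul_left, polar_smul_right, c.pol, hzz, hzz', hz, hz', hzs0, hww']
  have q4 : Commute (sg k₂) (sg h₁) := by
    apply sg_commute <;>
      simp [polar_smul_left, polar_smul_right, c.pol, hzz, hzz', hz, hz', hzs0', hw'cc]
  have q5 : Commute (sg k₂) (sg k₁) := by
    apply sg_commute <;>
      simp [polar_smul_left, polar_smul_right, c.pol, hzz, hzz', hz, hz', hzs0', hzszs, hzs0]
  have hcomm := comm_of_central q1 q2 q3 q4 q5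
  have k₃ : SPair Q (z' ⊗ₜ[F] w) (z' ⊗ₜ[F] w') := spair_tmul c (by rw [hz', zero_mul])
  have hsc : sg k₃ = ⁅sg h₁, sg k₁⁆ :=
    Cfsg.Agent.Lib.Helper95.sg_commutator h₁ k₁ (by simp [c.pol, hz']) (by simp [c.pol, hzz'])
      (by simp [c.pol, hzs0']) (by simp [c.pol, hzs1', hc21']) k₃
  refine ⟨z', w, w', hz'0, hww'i, hww', k₃, ?_⟩
  rw [hsc, ← hcomm, ← e₃]
  have hm : sg h₁ * sg h₂ ∈ M.comap (OG Q).subtype := h
  have hHm : H ∈ M.comap (OG Q).subtype := by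
    show H.1 ∈ M
    rw [hH]; exact hHM
  rw [commutatorElement_def]
  have hconj := Subgroup.mul_mem _ (Subgroup.mul_mem _ hHm hm) (Subgroup.inv_mem _ hHm)
  exact Subgroup.mul_mem _ (Subgroup.mul_mem _ (Subgroup.mul_mem _ hm hconj)
    (Subgroup.inv_mem _ hm)) (Subgroup.inv_mem _ hconj)

end Cfsg.Agent.Lib.Helper59.TO
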