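import Cfsg.Agent.Lib.Helper59.TO.Defs

/-! Ladder TO, rung C2L2 (written by helper62). -/

set_option autoImplicit false

namespace Cfsg.Agent.Lib.Helper59.TO

open TensorProduct Module QuadraticMap Cfsg.Agent.Lib.Helper59.TP
open Cfsg.Agent.Lib.Helper95 (stv stv_apply tvGrp isoGrp omG SPair sg sg_apply LR glEquiv)
open Cfsg.Agent.Lib.Helper49 (OG FP)
open Cfsg.Agent.Lib.Helper99.SpSub (Ind)

variable {F U W : Type*} [Field F] [AddCommGroup U] [Module F U] [AddCommGroup W] [Module F W]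
variable {BU : LinearMap.BilinForm F U} {BW : LinearMap.BilinForm F W}
  {Q : QuadraticForm F (U ⊗[F] W)} {M : Subgroup ((U ⊗[F] W) ≃ₗ[F] (U ⊗[F] W))}

theorem c2l2_symm_apply (hU : BU.IsAlt) (z : U) (κ : F) (u : U) :
    (stv BU hU z κ).symm u = u - (κ * BU u z) • z := by
  have h : (stv BU hU z κ).symm = stv BU hU z (-κ) := Cfsg.Agent.Lib.Helper95.stv_inv hU z κ
  rw [h, stv_apply]
  module

/-- the conjugate `t A t⁻¹`, pointwise. -/
theorem c2l2_conj_apply (hU : BU.IsAlt) (A : U →ₗ[F] U) (z : U) (κ : F) (u : U) :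
    ((stv BU hU z κ).toLinearMap ∘ₗ A ∘ₗ (stv BU hU z κ).symm.toLinearMap) u
      = A u - (κ * BU u z) • A z + (κ * (BU (A u) z - κ * BU u z * BU (A z) z)) • z := by
  simp only [LinearMap.comp_apply, LinearEquiv.coe_coe, c2l2_symm_apply, stv_apply, map_sub,
    map_smul]
  module

theorem EE_mem_of_ne (hU : BU.IsAlt) (S : Set (U →ₗ[F] U)) (hadd : ∀ A ∈ S, ∀ B ∈ S, A + B ∈ S)
    (hneg : ∀ A ∈ S, -A ∈ S) (hsmul : ∀ (k : F), ∀ A ∈ S, k • A ∈ S)
    (hconj : ∀ A ∈ S, ∀ (z : U) (κ : F),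
      (stv BU hU z κ).toLinearMap ∘ₗ A ∘ₗ (stv BU hU z κ).symm.toLinearMap ∈ S)
    (A : U →ₗ[F] U) (hA : A ∈ S) (r : F) (hr0 : r ≠ 0) (hr1 : r ≠ 1) (z : U)
    (hz : BU (A z) z ≠ 0) : EE BU z z ∈ S := by
  have hD : ∀ κ : F,
      (stv BU hU z κ).toLinearMap ∘ₗ A ∘ₗ (stv BU hU z κ).symm.toLinearMap + -A ∈ S :=
    fun κ => hadd _ (hconj A hA z κ) _ (hneg A hA)
  have h1 := hadd _ (hsmul r _ (hD 1)) _ (hneg _ (hD r))
  have hne : (r ^ 2 - r) * BU (A z) z ≠ 0 := by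
    refine mul_ne_zero ?_ hz
    have : r ^ 2 - r = r * (r - 1) := by ring
    rw [this]
    exact mul_ne_zero hr0 (sub_ne_zero.2 hr1)
  have key : r • ((stv BU hU z 1).toLinearMap ∘ₗ A ∘ₗ (stv BU hU z 1).symm.toLinearMap + -A)
      + -((stv BU hU z r).toLinearMap ∘ₗ A ∘ₗ (stv BU hU z r).symm.toLinearMap + -A)
      = ((r ^ 2 - r) * BU (A z) z) • EE BU z z := by
    apply LinearMap.ext
    intro u
    simp only [LinearMap.add_apply, LinearMap.smul_apply, LinearMap.neg_apply, c2l2_conj_apply,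
      EE_apply]
    module
  rw [key] at h1
  have h2 := hsmul ((r ^ 2 - r) * BU (A z) z)⁻¹ _ h1
  rwa [smul_smul, inv_mul_cancel₀ hne, one_smul] at h2

end Cfsg.Agent.Lib.Helper59.TO
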