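import Cfsg.Agent.Lib.Helper59.TO.Defs
import Cfsg.Agent.Lib.Helper59.TO.C2L2

/-! Ladder TO, rung C2L4 (written by helper62). -/

set_option autoImplicit false

namespace Cfsg.Agent.Lib.Helper59.TO

open TensorProduct Module QuadraticMap Cfsg.Agent.Lib.Helper59.TP
open Cfsg.Agent.Lib.Helper95 (stv stv_apply tvGrp isoGrp omG SPair sg sg_apply LR glEquiv)
open Cfsg.Agent.Lib.Helper49 (OG FP)
open Cfsg.Agent.Lib.Helper99.SpSub (Ind)

variable {F U W : Type*} [Field F] [AddCommGroup U] [Module F U] [AddCommGroup W] [Module F W]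
variable {BU : LinearMap.BilinForm F U} {BW : LinearMap.BilinForm F W}
  {Q : QuadraticForm F (U ⊗[F] W)} {M : Subgroup ((U ⊗[F] W) ≃ₗ[F] (U ⊗[F] W))}

theorem EE2_mem (hU : BU.IsAlt) (S : Set (U →ₗ[F] U)) (hadd : ∀ A ∈ S, ∀ B ∈ S, A + B ∈ S)
    (hneg : ∀ A ∈ S, -A ∈ S)
    (hconj : ∀ A ∈ S, ∀ (z : U) (κ : F),
      (stv BU hU z κ).toLinearMap ∘ₗ A ∘ₗ (stv BU hU z κ).symm.toLinearMap ∈ S)
    (A : U →ₗ[F] U) (hA : A ∈ S) (z z' : U) (hzz : BU z z' = 0) (h1 : BU (A z) z' = 1) :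
    EE BU z' z + BU (A z') z • EE BU z z' ∈ S := by
  have hzz' : BU z' z = 0 := by
    rw [← hU.neg_eq, hzz, neg_zero]
  obtain ⟨D₁, hD₁⟩ : ∃ D₁, D₁ =
      (stv BU hU z 1).toLinearMap ∘ₗ A ∘ₗ (stv BU hU z 1).symm.toLinearMap + -A := ⟨_, rfl⟩
  have hD₁S : D₁ ∈ S := hD₁ ▸ hadd _ (hconj A hA z 1) _ (hneg A hA)
  have hD₁a : ∀ u, D₁ u = BU (A u) z • z - BU u z • A z - (BU (A z) z * BU u z) • z := by
    intro u
    rw [hD₁]
    simp only [LinearMap.add_apply, LinearMap.neg_apply, c2l2_conj_apply]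
    module
  have hD₂S := hneg _ (hadd _ (hconj D₁ hD₁S z' 1) _ (hneg D₁ hD₁S))
  convert hD₂S using 1
  apply LinearMap.ext
  intro u
  simp only [LinearMap.add_apply, LinearMap.smul_apply, LinearMap.neg_apply, c2l2_conj_apply,
    EE_apply, hD₁a, map_sub, map_smul, LinearMap.sub_apply, LinearMap.smul_apply, smul_eq_mul,
    hzz, hzz', h1]
  module

end Cfsg.Agent.Lib.Helper59.TO
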