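import Cfsg.Agent.Lib.Helper59.TO.Defs
import Cfsg.Agent.Lib.Helper59.TO.C2L2
import Cfsg.Agent.Lib.Helper59.TO.C2L4

/-! Ladder TO, rung C2LC (written by helper62). -/

set_option autoImplicit false

namespace Cfsg.Agent.Lib.Helper59.TO

open TensorProduct Module QuadraticMap Cfsg.Agent.Lib.Helper59.TP
open Cfsg.Agent.Lib.Helper95 (stv stv_apply tvGrp isoGrp omG SPair sg sg_apply LR glEquiv)
open Cfsg.Agent.Lib.Helper49 (OG FP)
open Cfsg.Agent.Lib.Helper99.SpSub (Ind)

variable {F U W : Type*} [Field F] [AddCommGroup U] [Module F U] [AddCommGroup W] [Module F W]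
variable {BU : LinearMap.BilinForm F U} {BW : LinearMap.BilinForm F W}
  {Q : QuadraticForm F (U ⊗[F] W)} {M : Subgroup ((U ⊗[F] W) ≃ₗ[F] (U ⊗[F] W))}

theorem c2lc_exists_r [Fintype F] (hF : Fintype.card F ≠ 2) : ∃ r : F, r ≠ 0 ∧ r ≠ 1 := by
  classical
  by_contra hcon
  push Not at hcon
  have h1 : Fintype.card F ≤ 2 := by
    have hsub : (Finset.univ : Finset F) ⊆ {0, 1} := fun r _ => by
      by_cases h : r = 0
      · simp [h]
      · simp [hcon r h]
    calc Fintype.card F = (Finset.univ : Finset F).card := rfl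
      _ ≤ ({0, 1} : Finset F).card := Finset.card_le_card hsub
      _ ≤ 2 := Finset.card_le_two
  have h3 : 1 < Fintype.card F := Fintype.one_lt_card
  omega

/-- a nonzero vector orthogonal to two given ones, in dimension at least three. -/
theorem c2lc_exists_perp [FiniteDimensional F U] (h3 : 3 ≤ finrank F U) (x y : U) :
    ∃ t : U, t ≠ 0 ∧ BU x t = 0 ∧ BU y t = 0 := by
  let φ : U →ₗ[F] F × F := (BU x).prod (BU y)
  have h1 := LinearMap.finrank_range_add_finrank_ker φ
  have h2 : finrank F (LinearMap.range φ) ≤ 2 := by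
    have := Submodule.finrank_le (LinearMap.range φ)
    simpa using this
  have h4 : 0 < finrank F (LinearMap.ker φ) := by omega
  have h5 : LinearMap.ker φ ≠ ⊥ := by
    intro h
    rw [h, finrank_bot] at h4
    exact lt_irrefl _ h4
  obtain ⟨t, ht, ht0⟩ := Submodule.exists_mem_ne_zero_of_ne_bot h5
  have h6 : φ t = 0 := LinearMap.mem_ker.1 ht
  exact ⟨t, ht0, congrArg Prod.fst h6, congrArg Prod.snd h6⟩

theorem exists_special [Fintype F] [FiniteDimensional F U] (hU : BU.IsAlt)
    (hnd : BU.Nondegenerate) (hex : ¬ (Fintype.card F = 2 ∧ finrank F U = 2))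
    (S : Set (U →ₗ[F] U)) (hadd : ∀ A ∈ S, ∀ B ∈ S, A + B ∈ S) (hneg : ∀ A ∈ S, -A ∈ S)
    (hsmul : ∀ (k : F), ∀ A ∈ S, k • A ∈ S)
    (hconj : ∀ A ∈ S, ∀ (z : U) (κ : F),
      (stv BU hU z κ).toLinearMap ∘ₗ A ∘ₗ (stv BU hU z κ).symm.toLinearMap ∈ S)
    (A : U →ₗ[F] U) (hA : A ∈ S) (hns : ∀ k : F, A ≠ k • LinearMap.id) :
    (∃ z : U, z ≠ 0 ∧ EE BU z z ∈ S) ∨
      ∃ (z z' : U) (β : F), Ind F z z' ∧ BU z z' = 0 ∧ EE BU z' z + β • EE BU z z' ∈ S := by
  classical
  obtain ⟨z, hz⟩ := endu_exists_vec A hns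
  have hz0 : z ≠ 0 := by
    rintro rfl
    exact hz 0 (by simp)
  have hind : Ind F (A z) z := Cfsg.Agent.Lib.Helper99.SpSub.ind_of_ne_smul hz0 hz
  have hli : LinearIndependent F ![A z, z] := LinearIndependent.pair_iff.2 hind
  have hdim2 : 2 ≤ finrank F U := by simpa using hli.fintype_card_le_finrank
  by_cases h2 : finrank F U = 2
  · left
    have hF : Fintype.card F ≠ 2 := fun h => hex ⟨h, h2⟩
    obtain ⟨r, hr0, hr1⟩ := c2lc_exists_r hF
    have hne : BU (A z) z ≠ 0 := by
      intro h0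
      apply hz0
      apply hnd.1
      intro y
      have hspan := hli.span_eq_top_of_card_eq_finrank' (by simp [h2])
      have hle : Submodule.span F (Set.range ![A z, z]) ≤ LinearMap.ker (BU z) := by
        rw [Submodule.span_le]
        rintro _ ⟨i, rfl⟩
        fin_cases i
        · show BU z (A z) = 0
          rw [← hU.neg_eq, h0, neg_zero]
        · exact hU z
      have hy : y ∈ Submodule.span F (Set.range ![A z, z]) := hspan ▸ Submodule.mem_top
      exact hle hy
    exact ⟨z, hz0, EE_mem_of_ne hU S hadd hneg hsmul hconj A hA r hr0 hr1 z hne⟩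
  · right
    have h3 : 3 ≤ finrank F U := by omega
    obtain ⟨t, ht1, ht2⟩ := Cfsg.Agent.Lib.Helper99.SpSub.exists_one_zero hnd hind
    obtain ⟨t₂, ht₂0, ht₂z, ht₂A⟩ := c2lc_exists_perp (BU := BU) h3 z (A z)
    -- one of `t`, `t + t₂` is not a multiple of `z`
    have hex2 : ∃ z' : U, BU (A z) z' = 1 ∧ BU z z' = 0 ∧ ∀ l : F, z' ≠ l • z := by
      by_cases hc : ∀ l : F, t ≠ l • z
      · exact ⟨t, ht1, ht2, hc⟩
      · push Not at hc
        obtain ⟨l, hl⟩ := hc
        refine ⟨t + t₂, by rw [map_add, ht1, ht₂A, add_zero], by rw [map_add, ht2, ht₂z, add_zero],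
          ?_⟩
        intro l' hl'
        have h4 : t₂ = (l' - l) • z := by
          rw [sub_smul, ← hl', ← hl]; abel
        have h5 : l' - l ≠ 0 := by
          intro h
          rw [h, zero_smul] at h4
          exact ht₂0 h4
        have h6 : BU (A z) z = 0 := by
          have := ht₂A
          rw [h4, map_smul, smul_eq_mul] at this
          exact (mul_eq_zero.1 this).resolve_left h5
        rw [hl, map_smul, smul_eq_mul, h6, mul_zero] at ht1
        exact zero_ne_one ht1
    obtain ⟨z', h1, h0, hl⟩ := hex2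
    exact ⟨z, z', BU (A z') z, (Cfsg.Agent.Lib.Helper99.SpSub.ind_of_ne_smul hz0 hl).symm, h0,
      EE2_mem hU S hadd hneg hconj A hA z z' h0 h1⟩

end Cfsg.Agent.Lib.Helper59.TO
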