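import Cfsg.Agent.Lib.Helper59.TO.Defs

set_option autoImplicit false

namespace Cfsg.Agent.Lib.Helper59.TO

open TensorProduct Module QuadraticMap Cfsg.Agent.Lib.Helper59.TP
open Cfsg.Agent.Lib.Helper95 (stv stv_apply tvGrp isoGrp omG SPair sg sg_apply LR glEquiv)
open Cfsg.Agent.Lib.Helper49 (OG FP)
open Cfsg.Agent.Lib.Helper99.SpSub (Ind)
open scoped commutatorElement

theorem exists_ctx {F : Type*} [Field F] {n n₁ n₂ : ℕ} (Q : (Fin n → F) → F)
    (hQ : Cfsg.Geo.IsNondegenerateQuadraticForm Q) (e : Fin n ≃ Fin n₁ × Fin n₂)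
    (P : Matrix.GeneralLinearGroup (Fin n) F) (f₁ : (Fin n₁ → F) → (Fin n₁ → F) → F)
    (f₂ : (Fin n₂ → F) → (Fin n₂ → F) → F) (hf₁ : Cfsg.Geo.IsSymplecticForm f₁)
    (hf₂ : Cfsg.Geo.IsSymplecticForm f₂)
    (hT : Cfsg.Geo.IsTensorFormStructure id (QuadraticMap.polar Q) f₁ f₂ e P)
    (hpure : ∀ (x₁ : Fin n₁ → F) (x₂ : Fin n₂ → F), Q (Matrix.mulVec (P : Matrix (Fin n) (Fin n) F)
      ((fun a : Fin n₁ × Fin n₂ => x₁ a.1 * x₂ a.2) ∘ e)) = 0)
    (L : (Fin n → F) ≃ₗ[F] ((Fin n₁ → F) ⊗[F] (Fin n₂ → F)))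
    (hL : ∀ (x₁ : Fin n₁ → F) (x₂ : Fin n₂ → F), L (Matrix.mulVec (P : Matrix (Fin n) (Fin n) F)
      ((fun a : Fin n₁ × Fin n₂ => x₁ a.1 * x₂ a.2) ∘ e)) = x₁ ⊗ₜ[F] x₂) :
    ∃ (BU : LinearMap.BilinForm F (Fin n₁ → F)) (BW : LinearMap.BilinForm F (Fin n₂ → F))
      (Q' : QuadraticForm F ((Fin n₁ → F) ⊗[F] (Fin n₂ → F))),
      Ctx BU BW Q' ∧ ∀ x, Q' (L x) = Q x := by
  obtain ⟨c₀, hc₀, hT⟩ := hT
  have hLs : ∀ (x₁ : Fin n₁ → F) (x₂ : Fin n₂ → F), L.symm (x₁ ⊗ₜ[F] x₂) =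
      Matrix.mulVec (P : Matrix (Fin n) (Fin n) F)
        ((fun a : Fin n₁ × Fin n₂ => x₁ a.1 * x₂ a.2) ∘ e) := by
    intro x₁ x₂
    rw [← hL, LinearEquiv.symm_apply_apply]
  set Q₀ := Cfsg.Agent.Lib.Helper95.qfOf Q hQ with hQ₀
  set Q' := Cfsg.Agent.Lib.Helper17.TensorOmega.pullQ L.symm Q₀ with hQ'
  have hQ'a : ∀ x, Q' x = Q (L.symm x) := fun x => rfl
  have hpol : ∀ x y, polar Q' x y = polar Q (L.symm x) (L.symm y) := fun x y =>
    Cfsg.Agent.Lib.Helper17.TensorOmega.polar_pullQ L.symm Q₀ x y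
  refine ⟨c₀ • Cfsg.Agent.Lib.Helper95.bilinOf f₁ hf₁.bilinear,
    Cfsg.Agent.Lib.Helper95.bilinOf f₂ hf₂.bilinear, Q', ?_, ?_⟩
  · refine ⟨?_, ?_, ?_, ?_, ?_, ?_, ?_⟩
    · intro x
      simp [hf₁.alternating]
    · intro x
      simp [hf₂.alternating]
    · have h := Cfsg.Agent.Lib.Helper95.bilinOf_nondegenerate f₁ hf₁.bilinear hf₁.nondegenerate
      constructor
      · intro x hx
        apply h.1 x
        intro y
        have := hx y
        simpa [hc₀] using this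
      · intro x hx
        apply h.2 x
        intro y
        have := hx y
        simpa [hc₀] using this
    · exact Cfsg.Agent.Lib.Helper95.bilinOf_nondegenerate f₂ hf₂.bilinear hf₂.nondegenerate
    · have h := Cfsg.Agent.Lib.Helper95.qfOf_nondegenerate Q hQ
      constructor
      · intro x hx
        have h1 : L.symm x = 0 := by
          apply h.1
          intro y
          have := hx (L y)
          rw [polarBilin_apply_apply, hpol, LinearEquiv.symm_apply_apply] at this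
          exact this
        simpa using h1
      · intro x hx
        have h1 : L.symm x = 0 := by
          apply h.2
          intro y
          have := hx (L y)
          rw [polarBilin_apply_apply, hpol, LinearEquiv.symm_apply_apply] at this
          exact this
        simpa using h1
    · intro u w
      rw [hQ'a, hLs]
      exact hpure u w
    · intro u w u' w'
      rw [hpol, hLs, hLs, hT]
      have h1 := Cfsg.Agent.Lib.Helper17.TensorForm.formOfGram_tp (id : F → F) (fun _ _ => rfl)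
        (Cfsg.Geo.gramMatrix f₁) (Cfsg.Geo.gramMatrix f₂) u u' w w'
      rw [Cfsg.Agent.Lib.Helper17.TensorForm.formOfGram_gram id f₁ hf₁.bilinear.add_left
          hf₁.bilinear.smul_left hf₁.bilinear.add_right hf₁.bilinear.smul_right,
        Cfsg.Agent.Lib.Helper17.TensorForm.formOfGram_gram id f₂ hf₂.bilinear.add_left
          hf₂.bilinear.smul_left hf₂.bilinear.add_right hf₂.bilinear.smul_right] at h1
      have h2 : Cfsg.Geo.formOfGram id
          (Matrix.kroneckerMap (· * ·) (Cfsg.Geo.gramMatrix f₁) (Cfsg.Geo.gramMatrix f₂))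
          (fun a : Fin n₁ × Fin n₂ => u a.1 * w a.2) (fun a : Fin n₁ × Fin n₂ => u' a.1 * w' a.2) =
          f₁ u u' * f₂ w w' := h1
      rw [h2]
      simp [mul_assoc]
  · intro x
    rw [hQ'a, LinearEquiv.symm_apply_apply]

end Cfsg.Agent.Lib.Helper59.TO
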