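import Cfsg.Agent.Lib.Helper59.TP.Main
import Cfsg.Agent.Lib.Helper49.Parabolic
import Cfsg.Agent.Lib.Helper99.SpSubV0
import Cfsg.Agent.Lib.Helper99.AltDerange
import Cfsg.Agent.Lib.Helper95.AutO.Pt
import Cfsg.Agent.Lib.Helper17.TensorOmega

set_option autoImplicit false

/-! Definitions for the S5704 ladder "TO": `Sp(U) ⊗ Sp(W)` (`dim U < dim W`) is maximal in
`Ω⁺(U ⊗ W)`. -/

namespace Cfsg.Agent.Lib.Helper59.TO

open TensorProduct Module QuadraticMap Cfsg.Agent.Lib.Helper59.TP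
open Cfsg.Agent.Lib.Helper95 (stv stv_apply tvGrp isoGrp omG SPair sg sg_apply LR)
open Cfsg.Agent.Lib.Helper49 (OG FP)

variable {F U W : Type*} [Field F] [AddCommGroup U] [Module F U] [AddCommGroup W] [Module F W]

/-- The context: alternating forms on `U`, `W` and the quadratic form on `U ⊗ W` vanishing on pure
tensors whose polar form is the tensor product. -/
structure Ctx (BU : LinearMap.BilinForm F U) (BW : LinearMap.BilinForm F W)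
    (Q : QuadraticForm F (U ⊗[F] W)) : Prop where
  altU : BU.IsAlt
  altW : BW.IsAlt
  ndU : BU.Nondegenerate
  ndW : BW.Nondegenerate
  ndQ : (polarBilin Q).Nondegenerate
  pure : ∀ (u : U) (w : W), Q (u ⊗ₜ[F] w) = 0
  pol : ∀ (u : U) (w : W) (u' : U) (w' : W),
    polar Q (u ⊗ₜ[F] w) (u' ⊗ₜ[F] w') = BU u u' * BW w w'

/-- `y ↦ B y w`. -/
def psi {X : Type*} [AddCommGroup X] [Module F X] (B : LinearMap.BilinForm F X) (w : X) :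
    Dual F X := B.flip w

@[simp] lemma psi_apply {X : Type*} [AddCommGroup X] [Module F X] (B : LinearMap.BilinForm F X)
    (w y : X) : psi B w y = B y w := rfl

/-- `1 ⊗ t_w(κ)`. -/
def rW (U : Type*) [AddCommGroup U] [Module F U] (BW : LinearMap.BilinForm F W) (hW : BW.IsAlt)
    (w : W) (κ : F) : (U ⊗[F] W) ≃ₗ[F] (U ⊗[F] W) :=
  TensorProduct.congr (LinearEquiv.refl F U) (stv BW hW w κ)

/-- `t_z(κ) ⊗ 1`. -/
def rU (W : Type*) [AddCommGroup W] [Module F W] (BU : LinearMap.BilinForm F U) (hU : BU.IsAlt)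
    (z : U) (κ : F) : (U ⊗[F] W) ≃ₗ[F] (U ⊗[F] W) :=
  TensorProduct.congr (stv BU hU z κ) (LinearEquiv.refl F W)

@[simp] lemma rW_tmul (BW : LinearMap.BilinForm F W) (hW : BW.IsAlt) (w : W) (κ : F) (u : U)
    (y : W) : rW U BW hW w κ (u ⊗ₜ[F] y) = u ⊗ₜ[F] y + (κ * BW y w) • u ⊗ₜ[F] w := by
  simp [rW, TensorProduct.tmul_add, TensorProduct.tmul_smul]

@[simp] lemma rU_tmul (BU : LinearMap.BilinForm F U) (hU : BU.IsAlt) (z : U) (κ : F) (u : U)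
    (y : W) : rU W BU hU z κ (u ⊗ₜ[F] y) = u ⊗ₜ[F] y + (κ * BU u z) • z ⊗ₜ[F] y := by
  simp [rU, TensorProduct.add_tmul, TensorProduct.smul_tmul']

/-- `M` contains all `1 ⊗ t_w(κ)`. -/
def HWs (BW : LinearMap.BilinForm F W) (hW : BW.IsAlt)
    (M : Subgroup ((U ⊗[F] W) ≃ₗ[F] (U ⊗[F] W))) : Prop := ∀ (w : W) (κ : F), rW U BW hW w κ ∈ M

/-- `M` contains all `t_z(κ) ⊗ 1`. -/
def HUs (BU : LinearMap.BilinForm F U) (hU : BU.IsAlt)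
    (M : Subgroup ((U ⊗[F] W) ≃ₗ[F] (U ⊗[F] W))) : Prop := ∀ (z : U) (κ : F), rU W BU hU z κ ∈ M

/-- The long root element `sg (x, y)` of `O(Q)` lies in `M`. -/
def LRM (Q : QuadraticForm F (U ⊗[F] W)) (M : Subgroup ((U ⊗[F] W) ≃ₗ[F] (U ⊗[F] W)))
    (x y : U ⊗[F] W) : Prop := LR (M.comap (OG Q).subtype) x y

/-- `e` fixes `U ⊗ w` pointwise and acts on `U ⊗ w^⊥` as `v ↦ v + α v ⊗ w`. -/
def IsQ (BW : LinearMap.BilinForm F W) (w : W) (α : U ⊗[F] W →ₗ[F] U)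
    (e : (U ⊗[F] W) ≃ₗ[F] (U ⊗[F] W)) : Prop :=
  (∀ u : U, e (u ⊗ₜ[F] w) = u ⊗ₜ[F] w) ∧
    ∀ (u : U) (y : W), BW y w = 0 → e (u ⊗ₜ[F] y) = u ⊗ₜ[F] y + α (u ⊗ₜ[F] y) ⊗ₜ[F] w

def QX (BW : LinearMap.BilinForm F W) (M : Subgroup ((U ⊗[F] W) ≃ₗ[F] (U ⊗[F] W))) (w : W)
    (α : U ⊗[F] W →ₗ[F] U) : Prop := ∃ e ∈ M, IsQ BW w α e

/-- Every element `v ↦ v + Λ v ⊗ w` of `M` is one of the `1 ⊗ t_w(κ)`. -/
def S1 (BW : LinearMap.BilinForm F W) (M : Subgroup ((U ⊗[F] W) ≃ₗ[F] (U ⊗[F] W))) : Prop :=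
  ∀ (w : W) (Λ : U ⊗[F] W →ₗ[F] U), w ≠ 0 → ZX M w Λ → ∃ κ : F, Λ = κ • ev U (psi BW w)

/-- Every element of `M` in the unipotent radical of the stabiliser of `U ⊗ w` acts on `U ⊗ w^⊥`
as an element `1 ⊗ x` does. -/
def S2 (BW : LinearMap.BilinForm F W) (M : Subgroup ((U ⊗[F] W) ≃ₗ[F] (U ⊗[F] W))) : Prop :=
  ∀ (w : W) (α : U ⊗[F] W →ₗ[F] U), w ≠ 0 → QX BW M w α →
    ∃ c : W, BW c w = 0 ∧ ∀ (u : U) (y : W), BW y w = 0 → α (u ⊗ₜ[F] y) = BW y c • u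

/-- `M` contains the long root elements attached to the lines `z ⊗ ⟨w, w'⟩`, `w ⊥ w'`. -/
def TA (BW : LinearMap.BilinForm F W) (Q : QuadraticForm F (U ⊗[F] W))
    (M : Subgroup ((U ⊗[F] W) ≃ₗ[F] (U ⊗[F] W))) : Prop :=
  ∀ (z : U) (w w' : W), BW w w' = 0 → LRM Q M (z ⊗ₜ[F] w) (z ⊗ₜ[F] w')

/-- The rank one map `u ↦ B u y • x`. -/
def EE (BU : LinearMap.BilinForm F U) (x y : U) : U →ₗ[F] U := (psi BU y).smulRight x

@[simp] lemma EE_apply (BU : LinearMap.BilinForm F U) (x y u : U) : EE BU x y u = BU u y • x := rfl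

/-- `1 ⊗ x_c`, `x_c = t_c(-1) t_{w+c}(1)`: for `c ⊥ w` it fixes `w` and maps `y ↦ y + B(y,c) w` for
`y ⊥ w`. -/
def yc (U : Type*) [AddCommGroup U] [Module F U] (BW : LinearMap.BilinForm F W) (hW : BW.IsAlt)
    (w c : W) : (U ⊗[F] W) ≃ₗ[F] (U ⊗[F] W) := rW U BW hW c (-1) * rW U BW hW (w + c) 1

/-- The set of `A ∈ End U` such that `M` contains, for every `κ`, an element of the radical of the
stabiliser of `U ⊗ w` acting on `U ⊗ w^⊥` as `u ⊗ y ↦ u ⊗ y + κ B(y,c) A u ⊗ w`. -/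
def SQ (BW : LinearMap.BilinForm F W) (M : Subgroup ((U ⊗[F] W) ≃ₗ[F] (U ⊗[F] W))) (w c : W) :
    Set (U →ₗ[F] U) := {A | ∀ κ : F, QX BW M w (κ • (A ∘ₗ ev U (psi BW c)))}

end Cfsg.Agent.Lib.Helper59.TO
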