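import Cfsg.Agent.Lib.Helper59.TO.POL
import Cfsg.Agent.Lib.Helper59.TO.TV

set_option autoImplicit false

namespace Cfsg.Agent.Lib.Helper59.TO

open TensorProduct Module QuadraticMap Cfsg.Agent.Lib.Helper59.TP
open Cfsg.Agent.Lib.Helper95 (stv stv_apply tvGrp isoGrp omG SPair sg sg_apply LR glEquiv)
open Cfsg.Agent.Lib.Helper49 (OG FP)
open Cfsg.Agent.Lib.Helper99.SpSub (Ind)

variable {F U W : Type*} [Field F] [AddCommGroup U] [Module F U] [AddCommGroup W] [Module F W]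
variable {BU : LinearMap.BilinForm F U} {BW : LinearMap.BilinForm F W}
  {Q : QuadraticForm F (U ⊗[F] W)} {M : Subgroup ((U ⊗[F] W) ≃ₗ[F] (U ⊗[F] W))}

theorem TA_of_typeB (c : Ctx BU BW Q) (hUs : HUs BU c.altU M) (hWs : HWs BW c.altW M)
    {z y : U} {w : W} (hind : Ind F z y) (hzy : BU z y = 0) (hw : w ≠ 0)
    (h : LRM Q M (z ⊗ₜ[F] w) (y ⊗ₜ[F] w)) : TA BW Q M := by
  have hswU : ∀ a b : U, BU a b = - BU b a := fun a b => (c.altU.neg_eq b a).symm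
  have hswW : ∀ a b : W, BW a b = - BW b a := fun a b => (c.altW.neg_eq b a).symm
  -- (a)
  have ha : ∀ (z₁ y₁ : U) (w₁ : W), Ind F z₁ y₁ → BU z₁ y₁ = 0 → w₁ ≠ 0 →
      LRM Q M (z₁ ⊗ₜ[F] w₁) (y₁ ⊗ₜ[F] w₁) := by
    intro z₁ y₁ w₁ hi h0 hw₁
    obtain ⟨t, ht, e1, e2⟩ :=
      Cfsg.Agent.Lib.Helper99.SpSub.trans_two c.altU c.ndU hind hzy hi h0
    obtain ⟨s, hs, e3⟩ := Cfsg.Agent.Lib.Helper99.SpSub.trans_one c.altW c.ndW hw hw₁
    have := LRM.move c hUs hWs h ht hs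
    rwa [TensorProduct.congr_tmul, TensorProduct.congr_tmul, e1, e2, e3] at this
  -- (b)
  have hb : ∀ (z₁ : U) (w₁ w₂ : W), z₁ ≠ 0 → BW w₂ w₁ ≠ 0 →
      LRM Q M (z₁ ⊗ₜ[F] w₁) (z₁ ⊗ₜ[F] w₂) := by
    intro z₁ w₁ w₂ hz₁ h21
    have hw₁ : w₁ ≠ 0 := by
      rintro rfl
      simp at h21
    have hw₂ : w₂ ≠ 0 := by
      rintro rfl
      simp at h21
    obtain ⟨t, ht, e1⟩ := Cfsg.Agent.Lib.Helper99.SpSub.trans_one c.altU c.ndU hind.left_ne hz₁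
    have hiso := Cfsg.Agent.Lib.Helper95.tvGrp_le_isoGrp c.altU ⊤ ht
    obtain ⟨y₁, hy₁⟩ : ∃ y₁, y₁ = t y := ⟨_, rfl⟩
    have hzy₁ : BU z₁ y₁ = 0 := by rw [← e1, hy₁, hiso, hzy]
    have hi₁ : Ind F z₁ y₁ := by
      intro a b hab
      apply hind a b
      apply t.injective
      rw [map_add, map_smul, map_smul, e1, ← hy₁, hab, map_zero]
    obtain ⟨y', hy1, hy2⟩ := Cfsg.Agent.Lib.Helper99.SpSub.exists_one_zero c.ndU hi₁.symm
    have hy'y₁ : BU y' y₁ = -1 := by rw [hswU, hy1]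
    have hy'z₁ : BU y' z₁ = 0 := by rw [hswU, hy2, neg_zero]
    obtain ⟨l, hl⟩ : ∃ l : F, l = (BU y' y₁ * BW w₂ w₁)⁻¹ := ⟨_, rfl⟩
    have hne : BU y' y₁ * BW w₂ w₁ ≠ 0 := by
      rw [hy'y₁]
      simpa using h21
    have hl0 : l ≠ 0 := by rw [hl]; exact inv_ne_zero hne
    have hi₂ : Ind F z₁ (l • y') := by
      apply Cfsg.Agent.Lib.Helper99.SpSub.ind_of_form (B := BU) (t := y₁) hz₁ _ hzy₁
      rw [map_smul, LinearMap.smul_apply, hy'y₁]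
      simpa using hl0
    have h1 := ha z₁ y₁ w₁ hi₁ hzy₁ hw₁
    have h2 := ha z₁ (l • y') w₂ hi₂ (by rw [map_smul, hy2, smul_zero]) hw₂
    refine LR.prop h1 h2 ?_ ?_ ?_ ?_
    · rw [c.pol, c.altU z₁, zero_mul]
    · rw [c.pol, hzy₁, zero_mul]
    · rw [c.pol, map_smul, LinearMap.smul_apply, hy'z₁, smul_zero, zero_mul]
    · rw [c.pol, map_smul, LinearMap.smul_apply, smul_eq_mul, mul_assoc, hl, inv_mul_cancel₀ hne]
  -- (c)
  intro z₀ w₀ w' hww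
  by_cases hz₀ : z₀ = 0
  · subst hz₀
    rw [TensorProduct.zero_tmul, TensorProduct.zero_tmul]
    exact LR.zero_left _ (by simp)
  by_cases hw₀ : w₀ = 0
  · subst hw₀
    rw [TensorProduct.tmul_zero]
    exact LR.zero_left _ (c.pure _ _)
  obtain ⟨w₂, hw₂⟩ := exists_flip_one c.altW c.ndW hw₀
  have h1 := hb z₀ w₀ w₂ hz₀ (by rw [hw₂]; exact one_ne_zero)
  have h2 := hb z₀ w₀ (w' - w₂) hz₀ (by
    rw [map_sub, LinearMap.sub_apply, hw₂, hswW, hww]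
    simp)
  have h3 := LR.add h1 h2 (by rw [c.pol, c.altU z₀, zero_mul])
  rwa [← TensorProduct.tmul_add, add_sub_cancel] at h3

end Cfsg.Agent.Lib.Helper59.TO
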