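import Cfsg.Agent.Lib.Helper59.TO.POL

set_option autoImplicit false

namespace Cfsg.Agent.Lib.Helper59.TO

open TensorProduct Module QuadraticMap Cfsg.Agent.Lib.Helper59.TP
open Cfsg.Agent.Lib.Helper95 (stv stv_apply tvGrp isoGrp omG SPair sg sg_apply LR glEquiv)
open Cfsg.Agent.Lib.Helper49 (OG FP)
open Cfsg.Agent.Lib.Helper99.SpSub (Ind)
open scoped commutatorElement

variable {F U W : Type*} [Field F] [AddCommGroup U] [Module F U] [AddCommGroup W] [Module F W]
variable {BU : LinearMap.BilinForm F U} {BW : LinearMap.BilinForm F W}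
  {Q : QuadraticForm F (U ⊗[F] W)} {M : Subgroup ((U ⊗[F] W) ≃ₗ[F] (U ⊗[F] W))}

theorem G1 [FiniteDimensional F W] (c : Ctx BU BW Q) (hb : 4 < finrank F W) (hTA : TA BW Q M)
    (z z₂ : U) (w w' : W) (h : BW w w' = 0) : LRM Q M (z ⊗ₜ[F] w) (z₂ ⊗ₜ[F] w') := by
  have hswW : ∀ a b : W, BW a b = - BW b a := fun a b => (c.altW.neg_eq b a).symm
  have key : ∀ z₂ : U, BU z₂ z ≠ 0 → LRM Q M (z ⊗ₜ[F] w) (z₂ ⊗ₜ[F] w') := by
    intro z₂ hz
    obtain ⟨e, f, hef, hperp⟩ :=
      Cfsg.Agent.Lib.Helper99.SpSub.exists_hyp c.altW c.ndW ![w, w'] (by omega)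
    have hwe : BW w e = 0 := (hperp 0).1
    have hwf : BW w f = 0 := (hperp 0).2
    have hw'e : BW w' e = 0 := (hperp 1).1
    have hw'f : BW w' f = 0 := (hperp 1).2
    have hfe : BW f e = -1 := by rw [hswW, hef]
    have hne : BU z₂ z * BW f e ≠ 0 := by
      rw [hfe]
      simpa using hz
    obtain ⟨l, hl⟩ : ∃ l : F, l = (BU z₂ z * BW f e)⁻¹ := ⟨_, rfl⟩
    have h1 := hTA z w e hwe
    have h2 := hTA z₂ w' (l • f) (by rw [map_smul, hw'f, smul_zero])
    refine LR.prop h1 h2 ?_ ?_ ?_ ?_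
    · rw [c.pol, hswW, h, neg_zero, mul_zero]
    · rw [c.pol, hw'e, mul_zero]
    · rw [c.pol, map_smul, LinearMap.smul_apply, hswW f w, hwf, neg_zero, smul_zero, mul_zero]
    · rw [c.pol, map_smul, LinearMap.smul_apply, smul_eq_mul, hl, mul_left_comm,
        inv_mul_cancel₀ hne]
  by_cases hz : BU z₂ z = 0
  · by_cases hz0 : z = 0
    · subst hz0
      rw [TensorProduct.zero_tmul]
      exact LR.zero_left _ (c.pure _ _)
    · obtain ⟨z₃, hz₃⟩ := exists_flip_one c.altU c.ndU hz0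
      have h1 := key z₃ (by rw [hz₃]; exact one_ne_zero)
      have h2 := key (z₂ - z₃) (by
        rw [map_sub, LinearMap.sub_apply, hz, hz₃]
        simp)
      have h3 := LR.add h1 h2 (by rw [c.pol, c.altW w', mul_zero])
      rwa [← TensorProduct.add_tmul, add_sub_cancel] at h3
  · exact key z₂ hz

end Cfsg.Agent.Lib.Helper59.TO
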