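import Cfsg.Agent.Lib.Helper59.TO.POL

set_option autoImplicit false

namespace Cfsg.Agent.Lib.Helper59.TO

open TensorProduct Module QuadraticMap Cfsg.Agent.Lib.Helper59.TP
open Cfsg.Agent.Lib.Helper95 (stv stv_apply tvGrp isoGrp omG SPair sg sg_apply LR glEquiv)
open Cfsg.Agent.Lib.Helper49 (OG FP)
open Cfsg.Agent.Lib.Helper99.SpSub (Ind)
open scoped commutatorElement

variable {F U W : Type*} [Field F] [AddCommGroup U] [Module F U] [AddCommGroup W] [Module F W]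
variable {BU : LinearMap.BilinForm F U} {BW : LinearMap.BilinForm F W}
  {Q : QuadraticForm F (U ⊗[F] W)} {M : Subgroup ((U ⊗[F] W) ≃ₗ[F] (U ⊗[F] W))}

theorem G2 [FiniteDimensional F W] (c : Ctx BU BW Q) (hb : 4 < finrank F W) (hTA : TA BW Q M)
    (hG1 : ∀ (z z₂ : U) (w w' : W), BW w w' = 0 → LRM Q M (z ⊗ₜ[F] w) (z₂ ⊗ₜ[F] w'))
    (z z₃ : U) (w w' : W) (h : BU z z₃ = 0) : LRM Q M (z ⊗ₜ[F] w) (z₃ ⊗ₜ[F] w') := by
  have hswW : ∀ a b : W, BW a b = - BW b a := fun a b => (c.altW.neg_eq b a).symm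
  have hswU : ∀ a b : U, BU a b = - BU b a := fun a b => (c.altU.neg_eq b a).symm
  by_cases hz0 : z₃ = 0
  · subst hz0
    rw [TensorProduct.zero_tmul]
    exact (LR.zero_left _ (c.pure _ _)).symm
  obtain ⟨z₂, hz₂⟩ := Cfsg.Agent.Lib.Helper99.SpSub.exists_one c.ndU hz0
  obtain ⟨e, f, hef, hperp⟩ :=
    Cfsg.Agent.Lib.Helper99.SpSub.exists_hyp c.altW c.ndW ![w, w'] (by omega)
  have hwe : BW w e = 0 := (hperp 0).1
  have hwf : BW w f = 0 := (hperp 0).2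
  have hw'e : BW w' e = 0 := (hperp 1).1
  have hw'f : BW w' f = 0 := (hperp 1).2
  have hfe : BW f e = -1 := by rw [hswW, hef]
  have h31 : BU z₃ z = 0 := by rw [hswU, h, neg_zero]
  have h1 := hG1 z z₂ w e hwe
  have h2 := hTA z₃ w' ((-1 : F) • f) (by rw [map_smul, hw'f, smul_zero])
  refine LR.prop h1 h2 ?_ ?_ ?_ ?_
  · rw [c.pol, h31, zero_mul]
  · rw [c.pol, hw'e, mul_zero]
  · rw [c.pol, h31, zero_mul]
  · rw [c.pol, map_smul, LinearMap.smul_apply, smul_eq_mul, hz₂, hfe]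
    ring

end Cfsg.Agent.Lib.Helper59.TO
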