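import Cfsg.Agent.Lib.Helper59.TO.POL

set_option autoImplicit false

namespace Cfsg.Agent.Lib.Helper59.TO

open TensorProduct Module QuadraticMap Cfsg.Agent.Lib.Helper59.TP
open Cfsg.Agent.Lib.Helper95 (stv stv_apply tvGrp isoGrp omG SPair sg sg_apply LR glEquiv)
open Cfsg.Agent.Lib.Helper49 (OG FP)
open Cfsg.Agent.Lib.Helper99.SpSub (Ind)
open scoped commutatorElement

variable {F U W : Type*} [Field F] [AddCommGroup U] [Module F U] [AddCommGroup W] [Module F W]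
variable {BU : LinearMap.BilinForm F U} {BW : LinearMap.BilinForm F W}
  {Q : QuadraticForm F (U ⊗[F] W)} {M : Subgroup ((U ⊗[F] W) ≃ₗ[F] (U ⊗[F] W))}

open Cfsg.Agent.Lib.Helper95.AutO (si si_mul si_zero si_eq_sg)

theorem G3 (c : Ctx BU BW Q)
    (hG1 : ∀ (z z₂ : U) (w w' : W), BW w w' = 0 → LRM Q M (z ⊗ₜ[F] w) (z₂ ⊗ₜ[F] w'))
    (hG2 : ∀ (z z₃ : U) (w w' : W), BU z z₃ = 0 → LRM Q M (z ⊗ₜ[F] w) (z₃ ⊗ₜ[F] w'))
    (z : U) (w : W) : FP (M.comap (OG Q).subtype) (z ⊗ₜ[F] w) := by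
  by_cases hz0 : z = 0
  · subst hz0
    rw [TensorProduct.zero_tmul]
    exact Cfsg.Agent.Lib.Helper49.FP.zero
  by_cases hw0 : w = 0
  · subst hw0
    rw [TensorProduct.tmul_zero]
    exact Cfsg.Agent.Lib.Helper49.FP.zero
  obtain ⟨zs, hzs⟩ := Cfsg.Agent.Lib.Helper99.SpSub.exists_one c.ndU hz0
  obtain ⟨ws, hws⟩ := Cfsg.Agent.Lib.Helper99.SpSub.exists_one c.ndW hw0
  obtain ⟨p, hp⟩ : ∃ p, p = z ⊗ₜ[F] w := ⟨_, rfl⟩
  have hQp : Q p = 0 := by rw [hp]; exact c.pure _ _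
  let T : Set (U ⊗[F] W) := {v | polar Q p v = 0 ∧ si Q p v ∈ M.comap (OG Q).subtype}
  have hTadd : ∀ a ∈ T, ∀ b ∈ T, a + b ∈ T := by
    rintro a ⟨ha1, ha2⟩ b ⟨hb1, hb2⟩
    refine ⟨by rw [polar_add_right, ha1, hb1, add_zero], ?_⟩
    rw [← si_mul hQp ha1 hb1]
    exact mul_mem ha2 hb2
  have hT0 : (0 : U ⊗[F] W) ∈ T := ⟨by simp, by rw [si_zero]; exact one_mem _⟩
  have hT1 : ∀ (u : U) (y : W), BU z u = 0 → u ⊗ₜ[F] y ∈ T := by
    intro u y h
    have hL := hG2 z u w y h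
    rw [← hp] at hL
    obtain ⟨hs, hm⟩ := hL
    exact ⟨hs.uv, by rw [si_eq_sg hs]; exact hm⟩
  have hT2 : ∀ (u : U) (y : W), BW w y = 0 → u ⊗ₜ[F] y ∈ T := by
    intro u y h
    have hL := hG1 z u w y h
    rw [← hp] at hL
    obtain ⟨hs, hm⟩ := hL
    exact ⟨hs.uv, by rw [si_eq_sg hs]; exact hm⟩
  have key : ∀ v : U ⊗[F] W, v - polar Q p v • (zs ⊗ₜ[F] ws) ∈ T := by
    intro v
    induction v using TensorProduct.induction_on with
    | zero => simpa using hT0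
    | tmul u y =>
      have h1 := hT1 (u - BU z u • zs) y (by
        rw [map_sub, map_smul, hzs]; simp)
      have h2 := hT2 (BU z u • zs) (y - BW w y • ws) (by
        rw [map_sub, map_smul, hws]; simp)
      have h3 := hTadd _ h1 _ h2
      convert h3 using 1
      rw [hp, c.pol, TensorProduct.sub_tmul, TensorProduct.tmul_sub, TensorProduct.tmul_smul,
        TensorProduct.smul_tmul', TensorProduct.smul_tmul', smul_smul]
      rw [mul_comm (BW w y)]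
      abel
    | add x y hx hy =>
      have := hTadd _ hx _ hy
      convert this using 1
      rw [polar_add_right, add_smul]
      abel
  refine ⟨c.pure _ _, ?_⟩
  intro v hv hpv
  rw [← hp] at hpv ⊢
  have := key v
  rw [hpv, zero_smul, sub_zero] at this
  have hs : SPair Q p v := ⟨hQp, hv, hpv⟩
  exact ⟨hs, by rw [← si_eq_sg hs]; exact this.2⟩

end Cfsg.Agent.Lib.Helper59.TO
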