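import Cfsg.Agent.Lib.Helper59.TO.POL

set_option autoImplicit false

namespace Cfsg.Agent.Lib.Helper59.TO

open TensorProduct Module QuadraticMap Cfsg.Agent.Lib.Helper59.TP
open Cfsg.Agent.Lib.Helper95 (stv stv_apply tvGrp isoGrp omG SPair sg sg_apply LR glEquiv)
open Cfsg.Agent.Lib.Helper49 (OG FP)
open Cfsg.Agent.Lib.Helper99.SpSub (Ind)
open scoped commutatorElement

variable {F U W : Type*} [Field F] [AddCommGroup U] [Module F U] [AddCommGroup W] [Module F W]
variable {BU : LinearMap.BilinForm F U} {BW : LinearMap.BilinForm F W}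
  {Q : QuadraticForm F (U ⊗[F] W)} {M : Subgroup ((U ⊗[F] W) ≃ₗ[F] (U ⊗[F] W))}

theorem G4 [Fintype F] [FiniteDimensional F U] [FiniteDimensional F W] (c : Ctx BU BW Q)
    (hd : 8 < finrank F (U ⊗[F] W))
    (hFP : ∀ (z : U) (w : W), FP (M.comap (OG Q).subtype) (z ⊗ₜ[F] w)) : omG Q ≤ M := by
  have hfr : finrank F (U ⊗[F] W) = finrank F U * finrank F W := finrank_tensorProduct
  have hU : 0 < finrank F U := by
    rcases Nat.eq_zero_or_pos (finrank F U) with h | h
    · rw [hfr, h, zero_mul] at hd; omega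
    · exact h
  have hW : 0 < finrank F W := by
    rcases Nat.eq_zero_or_pos (finrank F W) with h | h
    · rw [hfr, h, mul_zero] at hd; omega
    · exact h
  haveI : Nontrivial U := Module.nontrivial_of_finrank_pos hU
  haveI : Nontrivial W := Module.nontrivial_of_finrank_pos hW
  obtain ⟨z, hz⟩ := exists_ne (0 : U)
  obtain ⟨w, hw⟩ := exists_ne (0 : W)
  obtain ⟨z', hz'⟩ := Cfsg.Agent.Lib.Helper99.SpSub.exists_one c.ndU hz
  obtain ⟨w', hw'⟩ := Cfsg.Agent.Lib.Helper99.SpSub.exists_one c.ndW hw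
  have hall := Cfsg.Agent.Lib.Helper49.FP.all c.ndQ hd (hFP z w) (hFP z' w')
    (by rw [c.pol, hz', hw', one_mul]; exact one_ne_zero)
  have hle : commutator (OG Q) ≤ M.comap (OG Q).subtype := by
    apply Cfsg.Agent.Lib.Helper95.commutator_le_of_sg c.ndQ hd
    intro u v h
    obtain ⟨_, hm⟩ := (hall u h.qu).2 v h.qv h.uv
    exact hm
  rintro _ ⟨x, hx, rfl⟩
  exact hle hx

end Cfsg.Agent.Lib.Helper59.TO
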