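import Cfsg.Agent.Lib.Helper59.TO.POL
import Cfsg.Agent.Lib.Helper59.TO.TV

set_option autoImplicit false

namespace Cfsg.Agent.Lib.Helper59.TO

open TensorProduct Module QuadraticMap Cfsg.Agent.Lib.Helper59.TP
open Cfsg.Agent.Lib.Helper95 (stv stv_apply tvGrp isoGrp omG SPair sg sg_apply LR glEquiv)
open Cfsg.Agent.Lib.Helper49 (OG FP)
open Cfsg.Agent.Lib.Helper99.SpSub (Ind)
open scoped commutatorElement

variable {F U W : Type*} [Field F] [AddCommGroup U] [Module F U] [AddCommGroup W] [Module F W]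
variable {BU : LinearMap.BilinForm F U} {BW : LinearMap.BilinForm F W}
  {Q : QuadraticForm F (U ⊗[F] W)} {M : Subgroup ((U ⊗[F] W) ≃ₗ[F] (U ⊗[F] W))}

theorem TA_of_typeA (c : Ctx BU BW Q) (hUs : HUs BU c.altU M) (hWs : HWs BW c.altW M)
    {z₀ : U} {w₀ w₀' : W} (hz : z₀ ≠ 0) (hind : Ind F w₀ w₀') (h0 : BW w₀ w₀' = 0)
    (h : LRM Q M (z₀ ⊗ₜ[F] w₀) (z₀ ⊗ₜ[F] w₀')) : TA BW Q M := by
  intro z w w' hww
  by_cases hz0 : z = 0
  · subst hz0
    rw [TensorProduct.zero_tmul, TensorProduct.zero_tmul]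
    exact LR.zero_left _ (by simp)
  by_cases hw0 : w = 0
  · subst hw0
    rw [TensorProduct.tmul_zero]
    exact LR.zero_left _ (c.pure _ _)
  by_cases hdep : ∃ l : F, w' = l • w
  · obtain ⟨l, rfl⟩ := hdep
    refine LRM.of_apply (spair_tmul c (by rw [c.altU z, zero_mul])) (e := 1) M.one_mem ?_
    intro v
    rw [TensorProduct.tmul_smul, polar_smul_left, smul_eq_mul, LinearEquiv.coe_one, id_eq]
    module
  · push Not at hdep
    have hi : Ind F w w' := (Cfsg.Agent.Lib.Helper99.SpSub.ind_of_ne_smul hw0 hdep).symm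
    obtain ⟨t, ht, e1⟩ := Cfsg.Agent.Lib.Helper99.SpSub.trans_one c.altU c.ndU hz hz0
    obtain ⟨s, hs, e2, e3⟩ :=
      Cfsg.Agent.Lib.Helper99.SpSub.trans_two c.altW c.ndW hind h0 hi hww
    have := LRM.move c hUs hWs h ht hs
    rwa [TensorProduct.congr_tmul, TensorProduct.congr_tmul, e1, e2, e3] at this

end Cfsg.Agent.Lib.Helper59.TO
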