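import Cfsg.Agent.Lib.Helper59.TO.Defs

set_option autoImplicit false

namespace Cfsg.Agent.Lib.Helper59.TO

open TensorProduct Module QuadraticMap Cfsg.Agent.Lib.Helper59.TP
open Cfsg.Agent.Lib.Helper95 (stv stv_apply tvGrp isoGrp omG SPair sg sg_apply LR glEquiv)
open Cfsg.Agent.Lib.Helper49 (OG FP OG_apply OG_polar)
open Cfsg.Agent.Lib.Helper95.AutO (si si_apply si_mem_commutator)

/-- base case: an isometry fixing a hyperbolic frame and acting trivially modulo the span of `e` on
`e^⊥` is trivial. -/
theorem k0_base {F V : Type*} [Field F] [AddCommGroup V] [Module F V]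
    {Q : QuadraticForm F V} {k : ℕ} (e e' : Fin k → V)
    (hee : ∀ i j, polar Q (e i) (e j) = 0)
    (hee' : ∀ i j, polar Q (e' i) (e' j) = 0)
    (hdual : ∀ i j, polar Q (e i) (e' j) = if i = j then 1 else 0) (y : OG Q)
    (hfix : ∀ i, y.1 (e i) = e i) (hfix' : ∀ i, y.1 (e' i) = e' i)
    (hrad : ∀ x, (∀ i, polar Q (e i) x = 0) → y.1 x - x ∈ Submodule.span F (Set.range e)) :
    y = 1 := by
  classical
  apply Cfsg.Agent.Lib.Helper95.OG_ext
  intro x
  show y.1 x = x
  have hdual' : ∀ i j, polar Q (e' i) (e j) = if i = j then 1 else 0 := by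
    intro i j
    rw [polar_comm, hdual j i]
    simp only [eq_comm]
  set x₀ := x - ∑ i, polar Q (e' i) x • e i - ∑ i, polar Q (e i) x • e' i with hx₀
  have hpol_sum : ∀ (z : V) (c : Fin k → F) (f : Fin k → V),
      polar Q z (∑ i, c i • f i) = ∑ i, c i * polar Q z (f i) := by
    intro z c f
    have : polar Q z (∑ i, c i • f i) = polarBilin Q z (∑ i, c i • f i) := rfl
    rw [this, map_sum]
    refine Finset.sum_congr rfl (fun i _ => ?_)
    rw [map_smul, smul_eq_mul]
    rfl
  have h1 : ∀ j, polar Q (e j) x₀ = 0 := by
    intro j
    rw [hx₀, polar_sub_right, polar_sub_right, hpol_sum, hpol_sum]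
    simp only [hee, hdual, mul_zero, Finset.sum_const_zero, mul_ite, mul_one, Finset.sum_ite_eq,
      Finset.mem_univ, if_true]
    ring
  have h2 : ∀ j, polar Q (e' j) x₀ = 0 := by
    intro j
    rw [hx₀, polar_sub_right, polar_sub_right, hpol_sum, hpol_sum]
    simp only [hee', hdual', mul_zero, Finset.sum_const_zero, mul_ite, mul_one, Finset.sum_ite_eq,
      Finset.mem_univ, if_true]
    ring
  obtain ⟨c, hc⟩ := (Submodule.mem_span_range_iff_exists_fun F).1 (hrad x₀ h1)
  have h3 : ∀ j, c j = 0 := by
    intro j
    have h4 : polar Q (e' j) (y.1 x₀ - x₀) = 0 := by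
      rw [polar_sub_right, h2]
      have := OG_polar Q y (e' j) x₀
      rw [hfix', h2] at this
      rw [this, sub_zero]
    rw [← hc, hpol_sum] at h4
    simpa [hdual'] using h4
  have h5 : y.1 x₀ = x₀ := by
    have : y.1 x₀ - x₀ = 0 := by
      rw [← hc]
      simp [h3]
    exact sub_eq_zero.1 this
  have h6 : x = x₀ + ∑ i, polar Q (e' i) x • e i + ∑ i, polar Q (e i) x • e' i := by
    rw [hx₀]; abel
  rw [h6, map_add, map_add, h5, map_sum, map_sum]
  simp only [map_smul, hfix, hfix']

theorem mem_commutator_of_radical {F V : Type*} [Field F] [Fintype F] [AddCommGroup V] [Module F V]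
    [FiniteDimensional F V] {Q : QuadraticForm F V} (hQ : (polarBilin Q).Nondegenerate)
    (hd : 5 ≤ finrank F V) {k : ℕ} (e e' : Fin k → V) (he : ∀ i, Q (e i) = 0)
    (he' : ∀ i, Q (e' i) = 0) (hee : ∀ i j, polar Q (e i) (e j) = 0)
    (hee' : ∀ i j, polar Q (e' i) (e' j) = 0)
    (hdual : ∀ i j, polar Q (e i) (e' j) = if i = j then 1 else 0) (y : OG Q)
    (hfix : ∀ i, y.1 (e i) = e i)
    (hrad : ∀ x, (∀ i, polar Q (e i) x = 0) → y.1 x - x ∈ Submodule.span F (Set.range e)) :
    y ∈ commutator (OG Q) := by
  have key : ∀ m j : ℕ, j + m = k → ∀ y : OG Q, (∀ i, y.1 (e i) = e i) →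
      (∀ x, (∀ i, polar Q (e i) x = 0) → y.1 x - x ∈ Submodule.span F (Set.range e)) →
      (∀ i : Fin k, i.val < j → y.1 (e' i) = e' i) → y ∈ commutator (OG Q) := by
    intro m
    induction m with
    | zero =>
      intro j hj y hfix hrad hfix'
      rw [k0_base e e' hee hee' hdual y hfix (fun i => hfix' i (by omega)) hrad]
      exact Subgroup.one_mem _
    | succ m ih =>
      intro j hj y hfix hrad hfix'
      let J : Fin k := ⟨j, by omega⟩
      set r := y.1 (e' J) - e' J with hr
      have hyJ : y.1 (e' J) = e' J + r := by rw [hr]; abel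
      have r1 : ∀ i, polar Q (e i) r = 0 := by
        intro i
        have := OG_polar Q y (e i) (e' J)
        rw [hfix] at this
        rw [hr, polar_sub_right, this, sub_self]
      have r2 : ∀ i : Fin k, i.val < j → polar Q (e' i) r = 0 := by
        intro i hi
        have := OG_polar Q y (e' i) (e' J)
        rw [hfix' i hi] at this
        rw [hr, polar_sub_right, this, sub_self]
      have r3 : Q r + polar Q r (e' J) = 0 := by
        have h1 := OG_apply Q y (e' J)
        rw [hyJ, he', QuadraticMap.map_add Q, he', polar_comm] at h1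
        linear_combination h1
      have hJr : polar Q (e J) (-r) = 0 := by rw [polar_neg_right, r1, neg_zero]
      set τ := si Q (e J) (-r) with hτ
      have hτa : ∀ x, τ.1 x = x - polar Q (e J) x • r + polar Q r x • e J -
          (Q r * polar Q (e J) x) • e J := by
        intro x
        rw [hτ, si_apply (he J) hJr, polar_neg_left, QuadraticMap.map_neg]
        module
      have hτe : ∀ i, τ.1 (e i) = e i := by
        intro i
        rw [hτa, hee, polar_comm, r1]
        simp
      have hτc : τ ∈ commutator (OG Q) := si_mem_commutator hQ hd _ _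
      have hy' : τ * y ∈ commutator (OG Q) := by
        apply ih (j + 1) (by omega)
        · intro i
          rw [Subgroup.coe_mul, LinearEquiv.mul_apply, hfix, hτe]
        · intro x hx
          rw [Subgroup.coe_mul, LinearEquiv.mul_apply]
          have h1 := hrad x hx
          set d := y.1 x - x with hd'
          have h2 : y.1 x = x + d := by rw [hd']; abel
          have h3 : τ.1 d = d := by
            have : ∀ z ∈ Submodule.span F (Set.range e), τ.1 z = z := by
              intro z hz
              induction hz using Submodule.span_induction with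
              | mem z hz =>
                obtain ⟨i, rfl⟩ := hz
                exact hτe i
              | zero => exact map_zero _
              | add a b _ _ ha hb => rw [map_add, ha, hb]
              | smul c a _ ha => rw [map_smul, ha]
            exact this d h1
          rw [h2, map_add, h3, hτa, hx J]
          have h4 : x - (0 : F) • r + polar Q r x • e J - (Q r * 0) • e J + d - x =
              polar Q r x • e J + d := by
            module
          rw [h4]
          exact Submodule.add_mem _ (Submodule.smul_mem _ _ (Submodule.subset_span ⟨J, rfl⟩)) h1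
        · intro i hi
          rw [Subgroup.coe_mul, LinearEquiv.mul_apply]
          by_cases hiJ : i = J
          · rw [hiJ, hyJ, hτa, polar_add_right, polar_add_right, hdual, if_pos rfl, r1, polar_self]
            have : e' J + r - ((1 : F) + 0) • r + (polar Q r (e' J) + 2 • Q r) • e J -
                (Q r * (1 + 0)) • e J = e' J + (Q r + polar Q r (e' J)) • e J := by
              rw [two_nsmul]
              module
            rw [this, r3, zero_smul, add_zero]
          · have hlt : i.val < j := by
              have : i.val ≠ j := fun h => hiJ (Fin.ext h)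
              omega
            rw [hfix' i hlt, hτa, hdual, if_neg (fun h => hiJ h.symm), polar_comm, r2 i hlt]
            simp
      have : y = τ⁻¹ * (τ * y) := by group
      rw [this]
      exact Subgroup.mul_mem _ (Subgroup.inv_mem _ hτc) hy'
  exact key k 0 (by omega) y hfix hrad (fun i hi => absurd hi (by omega))

end Cfsg.Agent.Lib.Helper59.TO
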