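import Cfsg.Agent.Lib.Helper59.TO.POL
import Cfsg.Agent.Lib.Helper59.TO.K0

set_option autoImplicit false

namespace Cfsg.Agent.Lib.Helper59.TO

open TensorProduct Module QuadraticMap Cfsg.Agent.Lib.Helper59.TP
open Cfsg.Agent.Lib.Helper95 (stv stv_apply tvGrp isoGrp omG SPair sg sg_apply LR glEquiv)
open Cfsg.Agent.Lib.Helper49 (OG FP)
open Cfsg.Agent.Lib.Helper99.SpSub (Ind)
open scoped commutatorElement

variable {F U W : Type*} [Field F] [AddCommGroup U] [Module F U] [AddCommGroup W] [Module F W]
variable {BU : LinearMap.BilinForm F U} {BW : LinearMap.BilinForm F W}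
  {Q : QuadraticForm F (U ⊗[F] W)} {M : Subgroup ((U ⊗[F] W) ≃ₗ[F] (U ⊗[F] W))}

theorem mem_omG_of_radical [Fintype F] [FiniteDimensional F U] [FiniteDimensional F W]
    (c : Ctx BU BW Q) (hd : 5 ≤ finrank F (U ⊗[F] W)) {w : W} (hw : w ≠ 0)
    {y : (U ⊗[F] W) ≃ₗ[F] (U ⊗[F] W)} (hy : y ∈ OG Q) (hfix : ∀ u : U, y (u ⊗ₜ[F] w) = u ⊗ₜ[F] w)
    (hrad : ∀ (u : U) (y' : W), BW y' w = 0 → y (u ⊗ₜ[F] y') - u ⊗ₜ[F] y' ∈ II F U w) :
    y ∈ omG Q := by
  classical
  let b := Module.finBasis F U
  have hdex : ∀ j, ∃ d : U, b.coord j = psi BU d := fun j => exists_psi_eq c.ndU (b.coord j)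
  choose d hdj using hdex
  have hbd : ∀ i j, BU (b i) (d j) = if i = j then 1 else 0 := by
    intro i j
    have := LinearMap.congr_fun (hdj j) (b i)
    rw [psi_apply] at this
    rw [← this, Basis.coord_apply, Basis.repr_self, Finsupp.single_apply]
  obtain ⟨t, ht⟩ := Cfsg.Agent.Lib.Helper99.SpSub.exists_one c.ndW hw
  have hmem : (⟨y, hy⟩ : OG Q) ∈ commutator (OG Q) := by
    apply mem_commutator_of_radical c.ndQ hd (fun i => b i ⊗ₜ[F] w) (fun j => d j ⊗ₜ[F] t)
    · intro i; exact c.pure _ _
    · intro i; exact c.pure _ _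
    · intro i j; rw [c.pol, c.altW w, mul_zero]
    · intro i j; rw [c.pol, c.altW t, mul_zero]
    · intro i j; rw [c.pol, hbd, ht, mul_one]
    · intro i; exact hfix _
    · intro x hx
      show y x - x ∈ _
      have h1 : ev U (psi BW w) x = 0 := by
        apply c.ndU.1
        intro u
        have h2 : BU (ev U (psi BW w) x) = 0 := by
          apply b.ext
          intro i
          rw [← polar_tmul_left c, hx i, LinearMap.zero_apply]
        rw [h2, LinearMap.zero_apply]
      have h3 : y x - x ∈ II F U w := by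
        have hm := mem_span_of_ev_eq_zero c hw h1
        clear h1 hx
        induction hm using Submodule.span_induction with
        | mem v hv =>
          obtain ⟨u, y', hy', rfl⟩ := hv
          exact hrad u y' hy'
        | zero => simp
        | add a a' _ _ ha ha' =>
          have := Submodule.add_mem _ ha ha'
          rw [map_add]
          convert this using 1
          abel
        | smul k a _ ha =>
          have := Submodule.smul_mem _ k ha
          rw [map_smul, ← smul_sub]
          exact this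
      obtain ⟨u, hu⟩ := h3
      rw [← hu, ins_apply, ← b.sum_repr u, TensorProduct.sum_tmul]
      apply Submodule.sum_mem
      intro i _
      rw [← TensorProduct.smul_tmul']
      exact Submodule.smul_mem _ _ (Submodule.subset_span ⟨i, rfl⟩)
  exact ⟨⟨y, hy⟩, hmem, rfl⟩

end Cfsg.Agent.Lib.Helper59.TO
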