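import Cfsg.Agent.Lib.Helper59.TO.TV

set_option autoImplicit false

namespace Cfsg.Agent.Lib.Helper59.TO

open TensorProduct Module QuadraticMap Cfsg.Agent.Lib.Helper59.TP
open Cfsg.Agent.Lib.Helper95 (stv stv_apply tvGrp isoGrp omG SPair sg sg_apply LR glEquiv)
open Cfsg.Agent.Lib.Helper49 (OG FP)
open Cfsg.Agent.Lib.Helper99.SpSub (Ind)

variable {F U W : Type*} [Field F] [AddCommGroup U] [Module F U] [AddCommGroup W] [Module F W]
variable {BU : LinearMap.BilinForm F U} {BW : LinearMap.BilinForm F W}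
  {Q : QuadraticForm F (U ⊗[F] W)} {M : Subgroup ((U ⊗[F] W) ≃ₗ[F] (U ⊗[F] W))}

theorem mem_NT_of_map_II' (c : Ctx BU BW Q) (hUs : HUs BU c.altU M) (hWs : HWs BW c.altW M)
    (k1 : ∀ (w : W), w ≠ 0 → ∀ y ∈ M, (II F U w).map y.toLinearMap = II F U w → y ∈ NT F U W)
    {w₁ w₂ : W} (h1 : w₁ ≠ 0) (h2 : w₂ ≠ 0) {m : (U ⊗[F] W) ≃ₗ[F] (U ⊗[F] W)} (hm : m ∈ M)
    (h : (II F U w₁).map m.toLinearMap = II F U w₂) : m ∈ NT F U W := by
  obtain ⟨s, hs, hsw⟩ := Cfsg.Agent.Lib.Helper99.SpSub.trans_one c.altW c.ndW h2 h1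
  have hc : TensorProduct.congr (1 : U ≃ₗ[F] U) s ∈ M :=
    congr_mem_of_tvGrp c.altU c.altW hUs hWs (Subgroup.one_mem _) hs
  have hcm : TensorProduct.congr (1 : U ≃ₗ[F] U) s * m ∈ NT F U W := by
    apply k1 w₁ h1 _ (M.mul_mem hc hm)
    have : (TensorProduct.congr (1 : U ≃ₗ[F] U) s * m).toLinearMap =
        (TensorProduct.congr (1 : U ≃ₗ[F] U) s).toLinearMap ∘ₗ m.toLinearMap := rfl
    rw [this, Submodule.map_comp, h, map_congr_II, hsw]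
  have := (NT F U W).mul_mem ((NT F U W).inv_mem (congr_mem_NT (1 : U ≃ₗ[F] U) s)) hcm
  rwa [inv_mul_cancel_left] at this

end Cfsg.Agent.Lib.Helper59.TO
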