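import Cfsg.Agent.Lib.Helper59.TO.POL

set_option autoImplicit false

namespace Cfsg.Agent.Lib.Helper59.TO

open TensorProduct Module QuadraticMap Cfsg.Agent.Lib.Helper59.TP
open Cfsg.Agent.Lib.Helper95 (stv stv_apply tvGrp isoGrp omG SPair sg sg_apply LR glEquiv)
open Cfsg.Agent.Lib.Helper49 (OG FP)
open Cfsg.Agent.Lib.Helper99.SpSub (Ind)
open scoped commutatorElement

variable {F U W : Type*} [Field F] [AddCommGroup U] [Module F U] [AddCommGroup W] [Module F W]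
variable {BU : LinearMap.BilinForm F U} {BW : LinearMap.BilinForm F W}
  {Q : QuadraticForm F (U ⊗[F] W)} {M : Subgroup ((U ⊗[F] W) ≃ₗ[F] (U ⊗[F] W))}

theorem exists_sim_of_stab (c : Ctx BU BW Q) (hMO : M ≤ OG Q) (hWs : HWs BW c.altW M)
    (hS1 : S1 BW M) (hU0 : ∃ u : U, u ≠ 0) {w : W} (hw : w ≠ 0)
    {g : (U ⊗[F] W) ≃ₗ[F] (U ⊗[F] W)} (hg : g ∈ M)
    (hgw : (II F U w).map g.toLinearMap = II F U w) :
    ∃ (C : U ≃ₗ[F] U) (μ : F), μ ≠ 0 ∧ (∀ u, g (u ⊗ₜ[F] w) = C u ⊗ₜ[F] w) ∧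
      (∀ x y, BU (C x) (C y) = μ * BU x y) ∧
      ∀ v, ev U (psi BW w) (g v) = μ⁻¹ • C (ev U (psi BW w) v) := by
  obtain ⟨C, hC⟩ := exists_C hw g hgw
  set ε := ev U (psi BW w) with hε
  let Λ : U ⊗[F] W →ₗ[F] U := C.toLinearMap ∘ₗ ε ∘ₗ g.symm.toLinearMap
  have hΛ : ∀ v, Λ v = C (ε (g.symm v)) := fun v => rfl
  have hginv : ∀ u, g.symm (u ⊗ₜ[F] w) = C.symm u ⊗ₜ[F] w := by
    intro u
    rw [LinearEquiv.symm_apply_eq, hC, LinearEquiv.apply_symm_apply]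
  have hZ : ZX M w Λ := by
    refine ⟨fun u => ?_, g * rW U BW c.altW w 1 * g⁻¹,
      M.mul_mem (M.mul_mem hg (hWs w 1)) (M.inv_mem hg), fun v => ?_⟩
    · rw [hΛ, hginv, hε, ev_tmul, psi_apply, c.altW w, zero_smul, map_zero]
    · rw [LinearEquiv.mul_apply, LinearEquiv.mul_apply, rW_apply, one_smul, map_add, hC, hΛ]
      congr 1
      exact LinearEquiv.apply_symm_apply g v
  obtain ⟨μ, hμΛ⟩ := hS1 w Λ hw hZ
  have hA : ∀ v, C (ε (g.symm v)) = μ • ε v := by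
    intro v
    rw [← hΛ, hμΛ]
    rfl
  have hsurj : Function.Surjective ε := ev_psi_surjective c hw
  have hμ : μ ≠ 0 := by
    rintro rfl
    obtain ⟨u, hu⟩ := hU0
    obtain ⟨v, hv⟩ := hsurj u
    have h1 := hA (g v)
    rw [LinearEquiv.symm_apply_apply, hv, zero_smul] at h1
    exact hu (C.map_eq_zero_iff.1 h1)
  refine ⟨C, μ, hμ, hC, ?_, ?_⟩
  · intro x u
    obtain ⟨v, hv⟩ := hsurj (C x)
    have h1 := Cfsg.Agent.Lib.Helper49.OG_polar Q ⟨g, hMO hg⟩ (g.symm v) (u ⊗ₜ[F] w)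
    change polar Q (g (g.symm v)) (g (u ⊗ₜ[F] w)) = _ at h1
    rw [LinearEquiv.apply_symm_apply, hC, polar_tmul_right c, polar_tmul_right c, ← hε, hv] at h1
    have h2 : ε (g.symm v) = μ • x := by
      apply C.injective
      rw [hA, hv, map_smul]
    rw [h1, h2, map_smul, LinearMap.smul_apply, smul_eq_mul]
  · intro v
    have h1 := hA (g v)
    rw [LinearEquiv.symm_apply_apply] at h1
    rw [h1, smul_smul, inv_mul_cancel₀ hμ, one_smul]

end Cfsg.Agent.Lib.Helper59.TO
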