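import Cfsg.Agent.Lib.Helper59.TO.Defs

set_option autoImplicit false

namespace Cfsg.Agent.Lib.Helper59.TO

open TensorProduct Module QuadraticMap Cfsg.Agent.Lib.Helper59.TP
open Cfsg.Agent.Lib.Helper95 (stv stv_apply tvGrp isoGrp omG SPair sg sg_apply LR glEquiv)
open Cfsg.Agent.Lib.Helper49 (OG FP)
open Cfsg.Agent.Lib.Helper99.SpSub (Ind)

variable {F U W : Type*} [Field F] [AddCommGroup U] [Module F U] [AddCommGroup W] [Module F W]
variable {BU : LinearMap.BilinForm F U} {BW : LinearMap.BilinForm F W}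
  {Q : QuadraticForm F (U ⊗[F] W)} {M : Subgroup ((U ⊗[F] W) ≃ₗ[F] (U ⊗[F] W))}

theorem yc_mem (hW : BW.IsAlt) (hWs : HWs BW hW M) (w c : W) : yc U BW hW w c ∈ M :=
  M.mul_mem (hWs _ _) (hWs _ _)

theorem yc_mem_NT (hW : BW.IsAlt) (w c : W) : yc U BW hW w c ∈ NT F U W :=
  (NT F U W).mul_mem (congr_mem_NT _ _) (congr_mem_NT _ _)

theorem yc_isQ (hW : BW.IsAlt) {w c : W} (h : BW c w = 0) :
    IsQ BW w (ev U (psi BW c)) (yc U BW hW w c) := by
  have h' : BW w c = 0 := by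
    rw [Cfsg.Agent.Lib.Helper95.alt_swap hW, h, neg_zero]
  refine ⟨fun u => ?_, fun u y hy => ?_⟩
  · simp only [yc, LinearEquiv.mul_apply, rW_tmul, map_add, hW w, h', add_zero, mul_zero,
      zero_smul]
  · have e1 : BW y (w + c) = BW y c := by rw [map_add, hy, zero_add]
    have e2 : BW (w + c) c = 0 := by rw [map_add, LinearMap.add_apply, h', hW c, add_zero]
    rw [yc, LinearEquiv.mul_apply, rW_tmul, map_add, map_smul, rW_tmul, rW_tmul, e1, e2, ev_tmul,
      psi_apply, TensorProduct.tmul_add, ← TensorProduct.smul_tmul']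
    module

end Cfsg.Agent.Lib.Helper59.TO
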