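import Cfsg.Agent.Lib.Helper59.TO.POL
import Cfsg.Agent.Lib.Helper59.TO.KB

set_option autoImplicit false

namespace Cfsg.Agent.Lib.Helper59.TO

open TensorProduct Module QuadraticMap Cfsg.Agent.Lib.Helper59.TP
open Cfsg.Agent.Lib.Helper95 (stv stv_apply tvGrp isoGrp omG SPair sg sg_apply LR glEquiv)
open Cfsg.Agent.Lib.Helper49 (OG FP)
open Cfsg.Agent.Lib.Helper99.SpSub (Ind)

variable {F U W : Type*} [Field F] [AddCommGroup U] [Module F U] [AddCommGroup W] [Module F W]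
variable {BU : LinearMap.BilinForm F U} {BW : LinearMap.BilinForm F W}
  {Q : QuadraticForm F (U ⊗[F] W)} {M : Subgroup ((U ⊗[F] W) ≃ₗ[F] (U ⊗[F] W))}

theorem exists_c_of_stab (c : Ctx BU BW Q) (hWs : HWs BW c.altW M) (hS2 : S2 BW M) {w : W}
    (hw : w ≠ 0) {g : (U ⊗[F] W) ≃ₗ[F] (U ⊗[F] W)} (hg : g ∈ M) (C : U ≃ₗ[F] U)
    (hC : ∀ u, g (u ⊗ₜ[F] w) = C u ⊗ₜ[F] w)
    (hperp : ∀ v, ev U (psi BW w) v = 0 → ev U (psi BW w) (g v) = 0) {cc : W} (hcc : BW cc w = 0) :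
    ∃ c' : W, BW c' w = 0 ∧ ∀ (u : U) (y : W), BW y w = 0 →
      ev U (psi BW cc) (g (u ⊗ₜ[F] y)) = BW y c' • C u := by
  have hCs : ∀ u, g.symm (u ⊗ₜ[F] w) = C.symm u ⊗ₜ[F] w := by
    intro u
    rw [LinearEquiv.symm_apply_eq, hC, LinearEquiv.apply_symm_apply]
  have hq := yc_isQ (U := U) c.altW hcc
  have hQX : QX BW M w (C.symm.toLinearMap ∘ₗ ev U (psi BW cc) ∘ₗ g.toLinearMap) := by
    refine ⟨g⁻¹ * yc U BW c.altW w cc * g,
      M.mul_mem (M.mul_mem (M.inv_mem hg) (yc_mem c.altW hWs w cc)) hg, fun u => ?_,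
      fun u y hy => ?_⟩
    · rw [LinearEquiv.mul_apply, LinearEquiv.mul_apply, LinearEquiv.coe_inv, hC, hq.1, hCs,
        LinearEquiv.symm_apply_apply]
    · have h1 : ev U (psi BW w) (g (u ⊗ₜ[F] y)) = 0 := hperp _ (by simp [hy])
      rw [LinearEquiv.mul_apply, LinearEquiv.mul_apply, LinearEquiv.coe_inv, hq.apply c hw h1,
        map_add, LinearEquiv.symm_apply_apply, hCs]
      rfl
  obtain ⟨c', hc', h⟩ := hS2 w _ hw hQX
  refine ⟨c', hc', fun u y hy => ?_⟩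
  have h1 := h u y hy
  have h2 : C.symm (ev U (psi BW cc) (g (u ⊗ₜ[F] y))) = BW y c' • u := h1
  rw [LinearEquiv.symm_apply_eq, map_smul] at h2
  exact h2

end Cfsg.Agent.Lib.Helper59.TO
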