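import Cfsg.Agent.Lib.Helper59.TO.POL

set_option autoImplicit false

namespace Cfsg.Agent.Lib.Helper59.TO

open TensorProduct Module QuadraticMap Cfsg.Agent.Lib.Helper59.TP
open Cfsg.Agent.Lib.Helper95 (stv stv_apply tvGrp isoGrp omG SPair sg sg_apply LR glEquiv)
open Cfsg.Agent.Lib.Helper49 (OG FP)
open Cfsg.Agent.Lib.Helper99.SpSub (Ind)
open scoped commutatorElement

variable {F U W : Type*} [Field F] [AddCommGroup U] [Module F U] [AddCommGroup W] [Module F W]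
variable {BU : LinearMap.BilinForm F U} {BW : LinearMap.BilinForm F W}
  {Q : QuadraticForm F (U ⊗[F] W)} {M : Subgroup ((U ⊗[F] W) ≃ₗ[F] (U ⊗[F] W))}

theorem exists_s0 [FiniteDimensional F W] (c : Ctx BU BW Q) (hU0 : ∃ u : U, u ≠ 0) {w : W}
    (hw : w ≠ 0) {g : (U ⊗[F] W) ≃ₗ[F] (U ⊗[F] W)} (hgO : g ∈ OG Q) (C : U ≃ₗ[F] U) (μ : F)
    (hμ : μ ≠ 0) (hC : ∀ u, g (u ⊗ₜ[F] w) = C u ⊗ₜ[F] w)
    (hsim : ∀ x y, BU (C x) (C y) = μ * BU x y)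
    (hev : ∀ v, ev U (psi BW w) (g v) = μ⁻¹ • C (ev U (psi BW w) v))
    (hKC : ∀ cc : W, BW cc w = 0 → ∃ c' : W, BW c' w = 0 ∧ ∀ (u : U) (y : W), BW y w = 0 →
      ev U (psi BW cc) (g (u ⊗ₜ[F] y)) = BW y c' • C u) :
    ∃ s₀ : W →ₗ[F] W, s₀ w = w ∧ (∀ y, BW y w = 0 → BW (s₀ y) w = 0) ∧
      (∀ y y', BW y w = 0 → BW y' w = 0 → BW (s₀ y) (s₀ y') = μ⁻¹ * BW y y') ∧
      ∀ (u : U) (y : W), BW y w = 0 → g (u ⊗ₜ[F] y) - C u ⊗ₜ[F] s₀ y ∈ II F U w := by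
  obtain ⟨u₀, hu₀⟩ := hU0
  have hCu₀ : C u₀ ≠ 0 := fun h => hu₀ (C.map_eq_zero_iff.1 h)
  obtain ⟨φ₀, hφ₀⟩ := Module.Projective.exists_dual_eq_one F hCu₀
  let s₀ : W →ₗ[F] W := k1b_evL φ₀ ∘ₗ g.toLinearMap ∘ₗ (TensorProduct.mk F U W u₀)
  have hs₀ : ∀ y, s₀ y = k1b_evL φ₀ (g (u₀ ⊗ₜ[F] y)) := fun _ => rfl
  have hsw : s₀ w = w := by rw [hs₀, hC, k1b_evL_tmul, hφ₀, one_smul]
  have hB : ∀ y cc, BW (s₀ y) cc = φ₀ (ev U (psi BW cc) (g (u₀ ⊗ₜ[F] y))) := by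
    intro y cc
    rw [← k1b_swap, ← hs₀, psi_apply]
  have h2 : ∀ y, BW y w = 0 → BW (s₀ y) w = 0 := by
    intro y hy
    rw [hB, hev, ev_tmul, psi_apply, hy, zero_smul, map_zero, smul_zero, map_zero]
  have h4 : ∀ (u : U) (y : W), BW y w = 0 → g (u ⊗ₜ[F] y) - C u ⊗ₜ[F] s₀ y ∈ II F U w := by
    intro u y hy
    apply mem_II_of_ev hw
    intro ψ hψ
    obtain ⟨cc, rfl⟩ := exists_psi_eq c.ndW ψ
    rw [psi_apply] at hψ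
    have hcc : BW cc w = 0 := by rw [← c.altW.neg_eq, hψ, neg_zero]
    obtain ⟨c', -, hc'⟩ := hKC cc hcc
    rw [map_sub, hc' u y hy, ev_tmul, psi_apply, hB, hc' u₀ y hy, map_smul, hφ₀, smul_eq_mul, mul_one,
      sub_self]
  refine ⟨s₀, hsw, h2, ?_, h4⟩
  intro y y' hy hy'
  obtain ⟨u', hu'⟩ : ∃ u', BU u₀ u' ≠ 0 := by
    by_contra hcon
    push Not at hcon
    exact hu₀ (c.ndU.1 u₀ hcon)
  obtain ⟨a, ha⟩ := h4 u₀ y hy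
  obtain ⟨a', ha'⟩ := h4 u' y' hy'
  rw [ins_apply] at ha ha'
  have e1 : g (u₀ ⊗ₜ[F] y) = C u₀ ⊗ₜ[F] s₀ y + a ⊗ₜ[F] w := by rw [ha]; abel
  have e2 : g (u' ⊗ₜ[F] y') = C u' ⊗ₜ[F] s₀ y' + a' ⊗ₜ[F] w := by rw [ha']; abel
  have h5 := Cfsg.Agent.Lib.Helper49.OG_polar Q ⟨g, hgO⟩ (u₀ ⊗ₜ[F] y) (u' ⊗ₜ[F] y')
  change polar Q (g (u₀ ⊗ₜ[F] y)) (g (u' ⊗ₜ[F] y')) = _ at h5
  have hws : BW w (s₀ y') = 0 := by rw [← c.altW.neg_eq, h2 y' hy', neg_zero]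
  rw [e1, e2, polar_add_left, polar_add_right, polar_add_right, c.pol, c.pol, c.pol, c.pol, c.pol,
    h2 y hy, hws, c.altW w, hsim] at h5
  have h6 : μ * BU u₀ u' ≠ 0 := mul_ne_zero hμ hu'
  apply mul_left_cancel₀ h6
  rw [show μ * BU u₀ u' * (μ⁻¹ * BW y y') = (μ * μ⁻¹) * (BU u₀ u' * BW y y') by ring,
    mul_inv_cancel₀ hμ, one_mul, ← h5]
  ring

end Cfsg.Agent.Lib.Helper59.TO
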