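import Cfsg.Agent.Lib.Helper59.TO.POL
import Cfsg.Agent.Lib.Helper59.TO.ISO

set_option autoImplicit false

namespace Cfsg.Agent.Lib.Helper59.TO

open TensorProduct Module QuadraticMap Cfsg.Agent.Lib.Helper59.TP
open Cfsg.Agent.Lib.Helper95 (stv stv_apply tvGrp isoGrp omG SPair sg sg_apply LR glEquiv)
open Cfsg.Agent.Lib.Helper49 (OG FP)
open Cfsg.Agent.Lib.Helper99.SpSub (Ind)
open scoped commutatorElement

variable {F U W : Type*} [Field F] [AddCommGroup U] [Module F U] [AddCommGroup W] [Module F W]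
variable {BU : LinearMap.BilinForm F U} {BW : LinearMap.BilinForm F W}
  {Q : QuadraticForm F (U ⊗[F] W)} {M : Subgroup ((U ⊗[F] W) ≃ₗ[F] (U ⊗[F] W))}

theorem ke1_inv_mul {V : Type*} [AddCommGroup V] [Module F V] (h g : V ≃ₗ[F] V) {x y : V}
    (e : g x = h y) : (h⁻¹ * g) x = y := by
  rw [LinearEquiv.mul_apply, e]
  exact h.symm_apply_apply y

theorem exists_NT_factor (c : Ctx BU BW Q) {w : W} {g : (U ⊗[F] W) ≃ₗ[F] (U ⊗[F] W)}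
    (C : U ≃ₗ[F] U) (μ : F) (hμ : μ ≠ 0) (hC : ∀ u, g (u ⊗ₜ[F] w) = C u ⊗ₜ[F] w)
    (hsim : ∀ x y, BU (C x) (C y) = μ * BU x y) (s₀ : W →ₗ[F] W)
    (hs₀ : ∀ (u : U) (y : W), BW y w = 0 → g (u ⊗ₜ[F] y) - C u ⊗ₜ[F] s₀ y ∈ II F U w)
    (s : W ≃ₗ[F] W) (hsw : s w = w) (hss : ∀ x y, BW (s x) (s y) = μ⁻¹ * BW x y)
    (hs : ∀ y, BW y w = 0 → ∃ l : F, s y = s₀ y + l • w) :
    ∃ h ∈ NT F U W, h ∈ OG Q ∧ (∀ u : U, (h⁻¹ * g) (u ⊗ₜ[F] w) = u ⊗ₜ[F] w) ∧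
      ∀ (u : U) (y' : W), BW y' w = 0 → (h⁻¹ * g) (u ⊗ₜ[F] y') - u ⊗ₜ[F] y' ∈ II F U w := by
  refine ⟨TensorProduct.congr C s, congr_mem_NT C s,
    congr_mem_OG c C s μ μ⁻¹ (mul_inv_cancel₀ hμ) hsim hss, ?_, ?_⟩
  · intro u
    apply ke1_inv_mul
    rw [hC, TensorProduct.congr_tmul, hsw]
  · intro u y' hy'
    obtain ⟨a, ha⟩ := hs₀ u y' hy'
    obtain ⟨l, hl⟩ := hs y' hy'
    have ha' : a ⊗ₜ[F] w = g (u ⊗ₜ[F] y') - C u ⊗ₜ[F] s₀ y' := ha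
    have key : g (u ⊗ₜ[F] y') =
        TensorProduct.congr C s (u ⊗ₜ[F] y' + C.symm (a - l • C u) ⊗ₜ[F] w) := by
      rw [map_add, TensorProduct.congr_tmul, TensorProduct.congr_tmul, hsw, C.apply_symm_apply, hl,
        TensorProduct.tmul_add, TensorProduct.sub_tmul, ha', TensorProduct.tmul_smul,
        TensorProduct.smul_tmul']
      abel
    rw [ke1_inv_mul _ _ key, add_sub_cancel_left]
    exact tmul_mem_II U w _

end Cfsg.Agent.Lib.Helper59.TO
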