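import Cfsg.Agent.Lib.Helper59.TO.POL
import Cfsg.Agent.Lib.Helper59.TO.KB
import Cfsg.Agent.Lib.Helper59.TO.CLEAN

set_option autoImplicit false

namespace Cfsg.Agent.Lib.Helper59.TO

open TensorProduct Module QuadraticMap Cfsg.Agent.Lib.Helper59.TP
open Cfsg.Agent.Lib.Helper95 (stv stv_apply tvGrp isoGrp omG SPair sg sg_apply LR glEquiv)
open Cfsg.Agent.Lib.Helper49 (OG FP)
open Cfsg.Agent.Lib.Helper99.SpSub (Ind)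

variable {F U W : Type*} [Field F] [AddCommGroup U] [Module F U] [AddCommGroup W] [Module F W]
variable {BU : LinearMap.BilinForm F U} {BW : LinearMap.BilinForm F W}
  {Q : QuadraticForm F (U ⊗[F] W)} {M : Subgroup ((U ⊗[F] W) ≃ₗ[F] (U ⊗[F] W))}

theorem radical_mem_NT [FiniteDimensional F W] (c : Ctx BU BW Q) (hMO : M ≤ OG Q)
    (hWs : HWs BW c.altW M) (hS1 : S1 BW M) (hS2 : S2 BW M) {w : W} (hw : w ≠ 0)
    {y : (U ⊗[F] W) ≃ₗ[F] (U ⊗[F] W)} (hy : y ∈ M) (hfix : ∀ u : U, y (u ⊗ₜ[F] w) = u ⊗ₜ[F] w)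
    (hrad : ∀ (u : U) (y' : W), BW y' w = 0 → y (u ⊗ₜ[F] y') - u ⊗ₜ[F] y' ∈ II F U w) :
    y ∈ NT F U W := by
  obtain ⟨χ₀, hχ₀⟩ : ∃ χ₀ : Dual F W, χ₀ w = 1 := Module.Projective.exists_dual_eq_one F hw
  have hII : ∀ ι ∈ II F U w, ev U χ₀ ι ⊗ₜ[F] w = ι := by
    rintro _ ⟨a, rfl⟩
    simp [hχ₀]
  let α : U ⊗[F] W →ₗ[F] U := ev U χ₀ ∘ₗ (y.toLinearMap - LinearMap.id)
  have hQ : IsQ BW w α y := ⟨hfix, fun u y' hy' => by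
    have h1 := hII _ (hrad u y' hy')
    show y (u ⊗ₜ[F] y') = u ⊗ₜ[F] y' + (ev U χ₀ (y (u ⊗ₜ[F] y') - u ⊗ₜ[F] y')) ⊗ₜ[F] w
    rw [h1]
    abel⟩
  obtain ⟨cc, hcc, hα⟩ := hS2 w α hw ⟨y, hy, hQ⟩
  set y₂ := (yc U BW c.altW w cc)⁻¹ * y with hy₂
  have hy₂M : y₂ ∈ M := M.mul_mem (M.inv_mem (yc_mem c.altW hWs w cc)) hy
  have hq := yc_isQ (U := U) c.altW hcc
  have hfix2 : ∀ (u : U) (y' : W), BW y' w = 0 → y₂ (u ⊗ₜ[F] y') = u ⊗ₜ[F] y' := by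
    intro u y' hy'
    rw [hy₂, LinearEquiv.mul_apply, LinearEquiv.coe_inv, LinearEquiv.symm_apply_eq, hq.2 u y' hy',
      hQ.2 u y' hy', hα u y' hy', ev_tmul, psi_apply]
  have hsub := sub_mem_II_of_fix c hw (hMO hy₂M) hfix2
  let Λ : U ⊗[F] W →ₗ[F] U := ev U χ₀ ∘ₗ (y₂.toLinearMap - LinearMap.id)
  have hΛ : ∀ v, y₂ v = v + Λ v ⊗ₜ[F] w := by
    intro v
    have h1 := hII _ (hsub v)
    show y₂ v = v + (ev U χ₀ (y₂ v - v)) ⊗ₜ[F] w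
    rw [h1]
    abel
  have hZ : ZX M w Λ := ⟨fun u => by
    show ev U χ₀ (y₂ (u ⊗ₜ[F] w) - u ⊗ₜ[F] w) = 0
    rw [hfix2 u w (c.altW w), sub_self, map_zero], y₂, hy₂M, hΛ⟩
  obtain ⟨κ, hκ⟩ := hS1 w Λ hw hZ
  have hy₂' : y₂ = rW U BW c.altW w κ := by
    apply LinearEquiv.ext
    intro v
    rw [rW_apply, hΛ v, hκ, LinearMap.smul_apply, TensorProduct.smul_tmul']
  have : y = yc U BW c.altW w cc * y₂ := by
    rw [hy₂]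
    group
  rw [this, hy₂']
  exact (NT F U W).mul_mem (yc_mem_NT c.altW w cc) (rW_mem_NT c.altW w κ)

end Cfsg.Agent.Lib.Helper59.TO
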