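import Cfsg.Agent.Lib.Helper59.TO.POL
import Cfsg.Agent.Lib.Helper95.OmSiegGen

set_option autoImplicit false

/-! Rung PROP of the S5704 ladder "TO": `GL(U) ⊗ GL(W)` does not contain `Ω(Q)`. -/

namespace Cfsg.Agent.Lib.Helper59.TO

open TensorProduct Module QuadraticMap Cfsg.Agent.Lib.Helper59.TP
open Cfsg.Agent.Lib.Helper95 (stv stv_apply tvGrp isoGrp omG SPair sg sg_apply LR glEquiv)
open Cfsg.Agent.Lib.Helper49 (OG FP)
open Cfsg.Agent.Lib.Helper99.SpSub (Ind)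
open scoped commutatorElement

variable {F U W : Type*} [Field F] [AddCommGroup U] [Module F U] [AddCommGroup W] [Module F W]
variable {BU : LinearMap.BilinForm F U} {BW : LinearMap.BilinForm F W}
  {Q : QuadraticForm F (U ⊗[F] W)} {M : Subgroup ((U ⊗[F] W) ≃ₗ[F] (U ⊗[F] W))}

theorem prop_exists_perp [FiniteDimensional F W] (hb : 3 ≤ finrank F W) (hW : BW.IsAlt) (w : W) :
    ∃ c' : W, BW c' w = 0 ∧ c' ∉ Submodule.span F {w} := by
  have h1 := LinearMap.finrank_range_add_finrank_ker (psi BW w)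
  have h2 : finrank F (LinearMap.range (psi BW w)) ≤ 1 := by
    have := Submodule.finrank_le (LinearMap.range (psi BW w))
    simpa using this
  have hw : w ∈ LinearMap.ker (psi BW w) := by
    rw [LinearMap.mem_ker, psi_apply]; exact hW w
  obtain ⟨y, hy⟩ := prop_exists_not_mem_span (F := F) (X := LinearMap.ker (psi BW w))
    (by omega) ⟨w, hw⟩
  refine ⟨y.1, LinearMap.mem_ker.1 y.2, ?_⟩
  intro hmem
  apply hy
  obtain ⟨a, ha⟩ := Submodule.mem_span_singleton.1 hmem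
  exact Submodule.mem_span_singleton.2 ⟨a, Subtype.ext ha⟩

theorem prop_tmul_ne {z : U} {v : W} (hz : z ≠ 0) (hv : v ≠ 0) : z ⊗ₜ[F] v ≠ 0 := by
  intro h
  apply hz
  apply ins_injective (F := F) (U := U) hv
  rw [ins_apply, h, map_zero]

theorem exists_not_mem_NT' [Fintype F] [FiniteDimensional F U] [FiniteDimensional F W]
    (c : Ctx BU BW Q) (hd : 10 < finrank F (U ⊗[F] W)) (ha : 2 ≤ finrank F U)
    (hab : finrank F U < finrank F W) : ∃ g ∈ omG Q, g ∉ NT F U W := by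
  have hU : Nontrivial U := Module.nontrivial_of_finrank_pos (R := F) (by omega)
  have hWn : Nontrivial W := Module.nontrivial_of_finrank_pos (R := F) (by omega)
  obtain ⟨z, hz⟩ := exists_ne (0 : U)
  obtain ⟨w, hw⟩ := exists_ne (0 : W)
  obtain ⟨c', hc'w, hc'⟩ := prop_exists_perp (F := F) (BW := BW) (by omega) c.altW w
  have hwc' : BW w c' = 0 := by rw [← c.altW.neg_eq, hc'w, neg_zero]
  have hsp : SPair Q (z ⊗ₜ[F] w) (z ⊗ₜ[F] c') := spair_tmul c (by rw [hwc', mul_zero])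
  refine ⟨(sg hsp).1, ⟨sg hsp, Cfsg.Agent.Lib.Helper95.sg_mem_commutator c.ndQ hd hsp, rfl⟩, ?_⟩
  intro hg
  have hrange : LinearMap.range ((sg hsp).1.toLinearMap - LinearMap.id)
      ≤ Submodule.span F {z ⊗ₜ[F] w, z ⊗ₜ[F] c'} := by
    rintro _ ⟨x, rfl⟩
    rw [LinearMap.sub_apply, LinearEquiv.coe_coe, sg_apply, LinearMap.id_apply]
    have h1 : z ⊗ₜ[F] w ∈ Submodule.span F {z ⊗ₜ[F] w, z ⊗ₜ[F] c'} :=
      Submodule.subset_span (by simp)
    have h2 : z ⊗ₜ[F] c' ∈ Submodule.span F {z ⊗ₜ[F] w, z ⊗ₜ[F] c'} :=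
      Submodule.subset_span (by simp)
    have h3 : x + polar Q (z ⊗ₜ[F] w) x • z ⊗ₜ[F] c' - polar Q (z ⊗ₜ[F] c') x • z ⊗ₜ[F] w - x
        = polar Q (z ⊗ₜ[F] w) x • z ⊗ₜ[F] c' - polar Q (z ⊗ₜ[F] c') x • z ⊗ₜ[F] w := by abel
    rw [h3]
    exact Submodule.sub_mem _ (Submodule.smul_mem _ _ h2) (Submodule.smul_mem _ _ h1)
  have h1 : finrank F (Submodule.span F {z ⊗ₜ[F] w, z ⊗ₜ[F] c'}) ≤ 2 := by
    classical
    have := finrank_span_finset_le_card (R := F) ({z ⊗ₜ[F] w, z ⊗ₜ[F] c'} : Finset (U ⊗[F] W))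
    have h2 : ({z ⊗ₜ[F] w, z ⊗ₜ[F] c'} : Finset (U ⊗[F] W)).card ≤ 2 := Finset.card_le_two
    have h3 : ((({z ⊗ₜ[F] w, z ⊗ₜ[F] c'} : Finset (U ⊗[F] W)) : Set (U ⊗[F] W)))
        = {z ⊗ₜ[F] w, z ⊗ₜ[F] c'} := by simp
    rw [h3] at this
    exact le_trans this h2
  have h2 := Submodule.finrank_mono hrange
  have hne : (sg hsp).1 ≠ 1 := by
    intro h
    obtain ⟨u', hu'⟩ := exists_flip_one c.altU c.ndU hz
    obtain ⟨y, hy⟩ := exists_flip_one c.altW c.ndW hw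
    have h3 := congrArg (fun e : (U ⊗[F] W) ≃ₗ[F] (U ⊗[F] W) => e (u' ⊗ₜ[F] y)) h
    simp only [sg_apply, LinearEquiv.coe_one, id_eq, c.pol] at h3
    have hzu : BU z u' = -1 := by rw [← c.altU.neg_eq, hu']
    have hwy : BW w y = -1 := by rw [← c.altW.neg_eq, hy]
    rw [hzu, hwy] at h3
    have h4 : z ⊗ₜ[F] (c' - (-1 * BW c' y) • w) = 0 := by
      rw [TensorProduct.tmul_sub, TensorProduct.tmul_smul]
      have h5 : u' ⊗ₜ[F] y + (-1 * -1 : F) • z ⊗ₜ[F] c' - (-1 * BW c' y) • z ⊗ₜ[F] w - u' ⊗ₜ[F] y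
          = 0 := by rw [h3, sub_self]
      rw [← h5]
      module
    have h6 : c' - (-1 * BW c' y) • w ≠ 0 := by
      intro h7
      apply hc'
      rw [sub_eq_zero] at h7
      rw [h7]
      exact Submodule.smul_mem _ _ (Submodule.mem_span_singleton_self _)
    exact prop_tmul_ne hz h6 h4
  obtain ⟨w₃, hw₃, hle⟩ := exists_II_le_range hg hne (by omega)
  obtain ⟨u, hu⟩ := prop_exists_not_mem_span (F := F) ha z
  obtain ⟨φ, hφ1, hφ0⟩ := k2_exists_dual hu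
  have hker : Submodule.span F {z ⊗ₜ[F] w, z ⊗ₜ[F] c'} ≤ LinearMap.ker (k1b_evL (W := W) φ) := by
    rw [Submodule.span_le]
    rintro x (rfl | rfl)
    · simp [k1b_evL_tmul, hφ0]
    · simp [k1b_evL_tmul, hφ0]
  have h5 := hker (hrange (hle (tmul_mem_II U w₃ u)))
  rw [LinearMap.mem_ker, k1b_evL_tmul, hφ1, one_smul] at h5
  exact hw₃ h5

end Cfsg.Agent.Lib.Helper59.TO
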