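import Cfsg.Agent.Lib.Helper59.TO.Defs

set_option autoImplicit false

/-! Ladder "TO", rung QXC: calculus of `QX`. -/

namespace Cfsg.Agent.Lib.Helper59.TO

open TensorProduct Module QuadraticMap Cfsg.Agent.Lib.Helper59.TP
open Cfsg.Agent.Lib.Helper95 (stv stv_apply tvGrp isoGrp omG SPair sg sg_apply LR glEquiv)
open Cfsg.Agent.Lib.Helper49 (OG FP)
open Cfsg.Agent.Lib.Helper99.SpSub (Ind)

variable {F U W : Type*} [Field F] [AddCommGroup U] [Module F U] [AddCommGroup W] [Module F W]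
variable {BU : LinearMap.BilinForm F U} {BW : LinearMap.BilinForm F W}
  {Q : QuadraticForm F (U ⊗[F] W)} {M : Subgroup ((U ⊗[F] W) ≃ₗ[F] (U ⊗[F] W))}

theorem QX.add {w : W} {α α' : U ⊗[F] W →ₗ[F] U} (h : QX BW M w α) (h' : QX BW M w α') :
    QX BW M w (α + α') := by
  obtain ⟨e, he, h1, h2⟩ := h
  obtain ⟨e', he', h1', h2'⟩ := h'
  refine ⟨e * e', M.mul_mem he he', fun u => ?_, fun u y hy => ?_⟩
  · rw [LinearEquiv.mul_apply, h1', h1]
  · rw [LinearEquiv.mul_apply, h2' u y hy, map_add, h2 u y hy, h1, LinearMap.add_apply,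
      TensorProduct.add_tmul, add_assoc]

theorem QX.neg {w : W} {α : U ⊗[F] W →ₗ[F] U} (h : QX BW M w α) : QX BW M w (-α) := by
  obtain ⟨e, he, h1, h2⟩ := h
  refine ⟨e⁻¹, M.inv_mem he, fun u => ?_, fun u y hy => ?_⟩
  · rw [LinearEquiv.coe_inv, LinearEquiv.symm_apply_eq, h1]
  · rw [LinearEquiv.coe_inv, LinearEquiv.symm_apply_eq, map_add, h2 u y hy, h1,
      LinearMap.neg_apply, TensorProduct.neg_tmul]
    abel

theorem QX.conjU (hU : BU.IsAlt) (hUs : HUs BU hU M) {w : W} {α : U ⊗[F] W →ₗ[F] U}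
    (h : QX BW M w α) (z : U) (κ : F) :
    QX BW M w ((stv BU hU z κ).toLinearMap ∘ₗ α ∘ₗ (rU W BU hU z κ).symm.toLinearMap) := by
  obtain ⟨e, he, h1, h2⟩ := h
  have hk : ∀ (u : U) (y : W), (rU W BU hU z κ).symm (u ⊗ₜ[F] y) =
      (stv BU hU z κ).symm u ⊗ₜ[F] y := by
    intro u y
    rw [LinearEquiv.symm_apply_eq]
    simp [rU]
  have hk' : ∀ (u : U) (y : W), (rU W BU hU z κ) (u ⊗ₜ[F] y) = (stv BU hU z κ) u ⊗ₜ[F] y := by
    intro u y
    simp [rU]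
  refine ⟨rU W BU hU z κ * e * (rU W BU hU z κ)⁻¹,
    M.mul_mem (M.mul_mem (hUs z κ) he) (M.inv_mem (hUs z κ)), fun u => ?_, fun u y hy => ?_⟩
  · rw [LinearEquiv.mul_apply, LinearEquiv.mul_apply, LinearEquiv.coe_inv, hk, h1, hk',
      LinearEquiv.apply_symm_apply]
  · rw [LinearEquiv.mul_apply, LinearEquiv.mul_apply, LinearEquiv.coe_inv, hk, h2 _ y hy, map_add,
      hk', hk', LinearEquiv.apply_symm_apply]
    simp [hk]

end Cfsg.Agent.Lib.Helper59.TO
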