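import Cfsg.Agent.Lib.Helper59.TO.Defs

set_option autoImplicit false

namespace Cfsg.Agent.Lib.Helper59.TO

open TensorProduct Module QuadraticMap Cfsg.Agent.Lib.Helper59.TP
open Cfsg.Agent.Lib.Helper95 (stv stv_apply tvGrp isoGrp omG SPair sg sg_apply LR glEquiv)
open Cfsg.Agent.Lib.Helper49 (OG FP)

private lemma root_sum {ι A : Type*} [DecidableEq ι] [AddCommMonoid A] (G : Set A)
    (h0 : (0 : A) ∈ G) (hadd : ∀ a ∈ G, ∀ b ∈ G, a + b ∈ G) (f : ι → ι → A)
    (hd : ∀ i, f i i = 0) (hs : ∀ i j, f i j + f j i ∈ G) (s : Finset ι) :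
    ∑ i ∈ s, ∑ j ∈ s, f i j ∈ G := by
  induction s using Finset.induction_on with
  | empty => simpa using h0
  | insert k s hk ih =>
    have h1 : ∑ i ∈ insert k s, ∑ j ∈ insert k s, f i j =
        ∑ j ∈ s, (f k j + f j k) + ∑ i ∈ s, ∑ j ∈ s, f i j := by
      rw [Finset.sum_insert hk, Finset.sum_insert hk, hd, zero_add]
      have : ∑ i ∈ s, ∑ j ∈ insert k s, f i j = ∑ i ∈ s, f i k + ∑ i ∈ s, ∑ j ∈ s, f i j := by
        rw [← Finset.sum_add_distrib]
        exact Finset.sum_congr rfl (fun i _ => Finset.sum_insert hk)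
      rw [this, Finset.sum_add_distrib, add_assoc]
    rw [h1]
    refine hadd _ ?_ _ ih
    have : ∀ t : Finset ι, ∑ j ∈ t, (f k j + f j k) ∈ G := by
      intro t
      induction t using Finset.induction_on with
      | empty => simpa using h0
      | insert l t hl iht =>
        rw [Finset.sum_insert hl]
        exact hadd _ (hs _ _) _ iht
    exact this s

theorem root_mem_omG {F V X : Type*} [Field F] [Fintype F] [AddCommGroup V] [Module F V]
    [FiniteDimensional F V] [AddCommGroup X] [Module F X] [FiniteDimensional F X]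
    {Q : QuadraticForm F V} (hQ : (polarBilin Q).Nondegenerate) (hd : 10 < finrank F V)
    (B : LinearMap.BilinForm F X) (hB : B.IsAlt) (hnd : B.Nondegenerate) (i : X →ₗ[F] V)
    (p : V →ₗ[F] X) (hi : ∀ x, Q (i x) = 0) (hp : ∀ v x, polar Q v (i x) = B (p v) x) (κ : F)
    (e : V ≃ₗ[F] V) (he : ∀ v, e v = v + κ • i (p v)) : e ∈ omG Q := by
  classical
  have hpol : ∀ x x', polar Q (i x) (i x') = 0 := by
    intro x x'
    have := hi (x + x')
    rw [map_add] at this
    simp only [polar, this, hi, sub_zero]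
  have hpi : ∀ x, p (i x) = 0 := by
    intro x
    apply hnd.1
    intro x'
    rw [← hp, hpol]
  let G : Set (X →ₗ[F] X) := {A | ∃ g ∈ commutator (OG Q), ∀ v, g.1 v = v + i (A (p v))}
  have hadd : ∀ A ∈ G, ∀ A' ∈ G, A + A' ∈ G := by
    rintro A ⟨g, hg, hgv⟩ A' ⟨g', hg', hgv'⟩
    refine ⟨g * g', mul_mem hg hg', fun v => ?_⟩
    have : (g * g').1 v = g.1 (g'.1 v) := rfl
    rw [this, hgv', hgv, map_add, hpi, add_zero, LinearMap.add_apply, map_add]
    abel
  have hzero : (0 : X →ₗ[F] X) ∈ G := ⟨1, one_mem _, fun v => by simp⟩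
  have hA : ∀ x x' : X, ((B.flip x).smulRight x' - (B.flip x').smulRight x) ∈ G := by
    intro x x'
    have hs : SPair Q (i x) (i x') := ⟨hi x, hi x', hpol x x'⟩
    refine ⟨sg hs, Cfsg.Agent.Lib.Helper95.sg_mem_commutator hQ hd hs, fun v => ?_⟩
    rw [sg_apply, polar_comm Q (i x) v, polar_comm Q (i x') v, hp, hp]
    simp only [LinearMap.sub_apply, LinearMap.smulRight_apply, LinearMap.flip_apply, map_sub,
      map_smul]
    abel
  -- dual basis
  let b := Module.finBasis F X
  have hdual : ∀ ψ : Dual F X, ∃ c : X, ∀ y, ψ y = B y c := by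
    intro ψ
    have hinj : Function.Injective (B.flip : X →ₗ[F] Dual F X) := by
      rw [← LinearMap.ker_eq_bot, LinearMap.ker_eq_bot']
      intro x hx
      exact hnd.2 x (fun y => by
        have := LinearMap.congr_fun hx y
        simpa using this)
    have hsurj : Function.Surjective (B.flip : X →ₗ[F] Dual F X) :=
      (LinearMap.injective_iff_surjective_of_finrank_eq_finrank
        (Subspace.dual_finrank_eq).symm).1 hinj
    obtain ⟨c, hc⟩ := hsurj ψ
    exact ⟨c, fun y => by rw [← hc]; rfl⟩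
  choose d hdd using fun j => hdual (b.coord j)
  have hexp : ∀ y : X, y = ∑ j, B y (d j) • b j := by
    intro y
    conv_lhs => rw [← b.sum_repr y]
    exact Finset.sum_congr rfl (fun j _ => by rw [← hdd j y]; rfl)
  let f : Fin (finrank F X) → Fin (finrank F X) → (X →ₗ[F] X) :=
    fun k j => (κ * B (d k) (d j)) • (B.flip (b j)).smulRight (b k)
  have hfd : ∀ k, f k k = 0 := by
    intro k
    simp only [f, hB (d k), mul_zero, zero_smul]
  have hfs : ∀ k j, f k j + f j k ∈ G := by
    intro k j
    have := hA (b j) ((κ * B (d k) (d j)) • b k)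
    convert this using 1
    ext y
    simp only [f, LinearMap.add_apply, LinearMap.smul_apply, LinearMap.smulRight_apply,
      LinearMap.flip_apply, LinearMap.sub_apply, map_smul, smul_eq_mul]
    rw [← hB.neg_eq (d k) (d j)]
    simp only [smul_smul, mul_neg, neg_smul, neg_mul]
    rw [sub_eq_add_neg]
    congr 1
    · rw [mul_comm]
  have hsum := root_sum G hzero hadd f hfd hfs Finset.univ
  have hid : ∑ k, ∑ j, f k j = κ • LinearMap.id := by
    ext y
    simp only [LinearMap.sum_apply, f, LinearMap.smul_apply, LinearMap.smulRight_apply,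
      LinearMap.flip_apply, LinearMap.id_apply]
    conv_rhs => rw [hexp y, Finset.smul_sum]
    refine Finset.sum_congr rfl (fun k _ => ?_)
    have h1 : B y (d k) = ∑ j, B (d k) (d j) * B y (b j) := by
      conv_lhs => rw [hexp (d k), map_sum]
      exact Finset.sum_congr rfl (fun j _ => by rw [map_smul, smul_eq_mul])
    rw [h1, Finset.sum_smul, Finset.smul_sum]
    refine Finset.sum_congr rfl (fun j _ => ?_)
    rw [smul_smul, smul_smul, mul_assoc]
    rfl
  rw [hid] at hsum
  obtain ⟨g, hg, hgv⟩ := hsum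
  refine ⟨g, hg, ?_⟩
  apply LinearEquiv.ext
  intro v
  rw [he]
  have := hgv v
  simpa using this

end Cfsg.Agent.Lib.Helper59.TO
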