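import Cfsg.Agent.Lib.Helper59.TO.ROOT
import Cfsg.Agent.Lib.Helper59.TO.POL

set_option autoImplicit false

namespace Cfsg.Agent.Lib.Helper59.TO

open TensorProduct Module QuadraticMap Cfsg.Agent.Lib.Helper59.TP
open Cfsg.Agent.Lib.Helper95 (stv stv_apply tvGrp isoGrp omG SPair sg sg_apply LR glEquiv)
open Cfsg.Agent.Lib.Helper49 (OG FP)

variable {F U W : Type*} [Field F] [AddCommGroup U] [Module F U] [AddCommGroup W] [Module F W]
variable {BU : LinearMap.BilinForm F U} {BW : LinearMap.BilinForm F W}
  {Q : QuadraticForm F (U ⊗[F] W)} {M : Subgroup ((U ⊗[F] W) ≃ₗ[F] (U ⊗[F] W))}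

theorem rW_mem_omG [Fintype F] [FiniteDimensional F U] [FiniteDimensional F W] (c : Ctx BU BW Q)
    (hd : 10 < finrank F (U ⊗[F] W)) (w : W) (κ : F) : rW U BW c.altW w κ ∈ omG Q :=
  root_mem_omG c.ndQ hd BU c.altU c.ndU (ins F U w) (ev U (psi BW w)) (fun x => c.pure x w)
    (fun v x => polar_tmul_right c v x w) κ _ (fun v => by rw [rW_apply]; rfl)

theorem rU_mem_omG [Fintype F] [FiniteDimensional F U] [FiniteDimensional F W] (c : Ctx BU BW Q)
    (hd : 10 < finrank F (U ⊗[F] W)) (z : U) (κ : F) : rU W BU c.altU z κ ∈ omG Q := by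
  refine root_mem_omG c.ndQ hd BW c.altW c.ndW (TensorProduct.mk F U W z) (k1b_evL (psi BU z))
    (fun x => c.pure z x) (fun v x => ?_) κ _ (fun v => ?_)
  · induction v using TensorProduct.induction_on with
    | zero => simp
    | tmul u y =>
      rw [TensorProduct.mk_apply, c.pol, k1b_evL_tmul, psi_apply, map_smul, LinearMap.smul_apply,
        smul_eq_mul]
    | add x y hx hy =>
      rw [polar_add_left, hx, hy, map_add, map_add, LinearMap.add_apply]
  · induction v using TensorProduct.induction_on with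
    | zero => simp
    | tmul u y =>
      rw [rU_tmul, k1b_evL_tmul, psi_apply, TensorProduct.mk_apply, TensorProduct.tmul_smul,
        smul_smul]
    | add x y hx hy =>
      rw [map_add, hx, hy, map_add, map_add, smul_add]
      abel

end Cfsg.Agent.Lib.Helper59.TO
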