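import Mathlib

set_option autoImplicit false

namespace Cfsg.Agent.Lib.Helper59.TO

open Module

variable {F W : Type*} [Field F] [AddCommGroup W] [Module F W]
variable {BW : LinearMap.BilinForm F W}

theorem exists_sim_ext [FiniteDimensional F W] (hW : BW.IsAlt) (hnd : BW.Nondegenerate) {w : W}
    (hw : w ≠ 0) (ν : F) (hν : ν ≠ 0) (s₀ : W →ₗ[F] W) (h1 : s₀ w = w)
    (h2 : ∀ y, BW y w = 0 → BW (s₀ y) w = 0)
    (h3 : ∀ y y', BW y w = 0 → BW y' w = 0 → BW (s₀ y) (s₀ y') = ν * BW y y') :
    ∃ s : W ≃ₗ[F] W, s w = w ∧ (∀ x y, BW (s x) (s y) = ν * BW x y) ∧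
      ∀ y, BW y w = 0 → ∃ l : F, s y = s₀ y + l • w := by
  have hsk : ∀ x y, BW x y = - BW y x := fun x y => hW.neg_eq y x |>.symm
  obtain ⟨t, h10⟩ : ∃ t : W, BW t w = 1 := by
    by_contra hcon
    push Not at hcon
    apply hw
    apply hnd.2
    intro y
    by_contra hy
    apply hcon ((BW y w)⁻¹ • y)
    rw [map_smul, LinearMap.smul_apply, smul_eq_mul, inv_mul_cancel₀ hy]
  have h01 : BW w t = -1 := by rw [hsk, h10]
  have hww : BW w w = 0 := hW w
  have htt : BW t t = 0 := hW t
  let a : W →ₗ[F] F := -(BW.flip t)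
  let b : W →ₗ[F] F := BW.flip w
  have ha : ∀ y, a y = - BW y t := fun y => rfl
  have hb : ∀ y, b y = BW y w := fun y => rfl
  let π : W →ₗ[F] W := LinearMap.id - a.smulRight w - b.smulRight t
  have hπ : ∀ y, π y = y - a y • w - b y • t := fun y => rfl
  have hdec : ∀ y, y = a y • w + b y • t + π y := by
    intro y
    rw [hπ]; abel
  have hπw : ∀ y, BW (π y) w = 0 := by
    intro y
    rw [hπ, map_sub, map_sub, map_smul, map_smul]
    simp only [LinearMap.sub_apply, LinearMap.smul_apply, smul_eq_mul, hww, h10, hb]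
    ring
  have hπt : ∀ y, BW (π y) t = 0 := by
    intro y
    rw [hπ, map_sub, map_sub, map_smul, map_smul]
    simp only [LinearMap.sub_apply, LinearMap.smul_apply, smul_eq_mul, htt, h01, ha]
    ring
  have hwπ : ∀ y, BW w (π y) = 0 := fun y => by rw [hsk, hπw, neg_zero]
  have htπ : ∀ y, BW t (π y) = 0 := fun y => by rw [hsk, hπt, neg_zero]
  have hππ : ∀ p q, BW p w = 0 → BW q w = 0 → BW (π p) (π q) = BW p q := by
    intro p q hp hq
    have hp' : π p = p - a p • w := by rw [hπ, hb, hp, zero_smul, sub_zero]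
    have hq' : π q = q - a q • w := by rw [hπ, hb, hq, zero_smul, sub_zero]
    have hwq : BW w q = 0 := by rw [hsk, hq, neg_zero]
    rw [hp', hq']
    simp only [map_sub, map_smul, LinearMap.sub_apply, LinearMap.smul_apply, smul_eq_mul, hww, hp, hwq]
    ring
  let P : W →ₗ[F] W := π ∘ₗ s₀ ∘ₗ π
  have hP : ∀ y, P y = π (s₀ (π y)) := fun y => rfl
  have hPP : ∀ x y, BW (P x) (P y) = ν * BW (π x) (π y) := by
    intro x y
    rw [hP, hP, hππ _ _ (h2 _ (hπw x)) (h2 _ (hπw y)), h3 _ _ (hπw x) (hπw y)]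
  let s : W →ₗ[F] W := a.smulRight w + (ν • b).smulRight t + P
  have hs : ∀ y, s y = a y • w + (ν * b y) • t + P y := fun y => rfl
  have hsim : ∀ x y, BW (s x) (s y) = ν * BW x y := by
    intro x y
    have hB : BW x y = BW (a x • w + b x • t + π x) (a y • w + b y • t + π y) := by
      rw [← hdec x, ← hdec y]
    rw [hB, hs, hs]
    simp only [map_add, map_smul, LinearMap.add_apply, LinearMap.smul_apply, smul_eq_mul, hww, htt, h10,
      h01, hP, hπw, hπt, hwπ, htπ]
    have := hPP x y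
    rw [hP, hP] at this
    rw [this]
    ring
  have hinj : Function.Injective s := by
    rw [injective_iff_map_eq_zero]
    intro x hx
    apply hnd.1
    intro y
    have := hsim x y
    rw [hx, map_zero, LinearMap.zero_apply] at this
    exact (mul_eq_zero.1 this.symm).resolve_left hν
  refine ⟨LinearEquiv.ofInjectiveEndo s hinj, ?_, hsim, ?_⟩
  · show s w = w
    have e1 : a w = 1 := by rw [ha, h01, neg_neg]
    have e2 : b w = 0 := by rw [hb, hww]
    have e3 : π w = 0 := by rw [hπ, e1, e2]; simp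
    rw [hs, hP, e1, e2, e3]
    simp
  · intro y hy
    refine ⟨- a (s₀ (π y)), ?_⟩
    show s y = _
    have e2 : b y = 0 := by rw [hb, hy]
    have e3 : π y = y - a y • w := by rw [hπ, e2, zero_smul, sub_zero]
    have e4 : b (s₀ (π y)) = 0 := by rw [hb]; exact h2 _ (hπw y)
    rw [hs, hP, hπ (s₀ (π y)), e4, e2]
    rw [e3, map_sub, map_smul, h1]
    simp only [mul_zero, zero_smul, add_zero, sub_zero, neg_smul]
    abel

end Cfsg.Agent.Lib.Helper59.TO
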