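import Cfsg.Agent.Lib.Helper59.TO.QXC

set_option autoImplicit false

namespace Cfsg.Agent.Lib.Helper59.TO

open TensorProduct Module QuadraticMap Cfsg.Agent.Lib.Helper59.TP
open Cfsg.Agent.Lib.Helper95 (stv stv_apply tvGrp isoGrp omG SPair sg sg_apply LR glEquiv)
open Cfsg.Agent.Lib.Helper49 (OG FP)
open Cfsg.Agent.Lib.Helper99.SpSub (Ind)

variable {F U W : Type*} [Field F] [AddCommGroup U] [Module F U] [AddCommGroup W] [Module F W]
variable {BU : LinearMap.BilinForm F U} {BW : LinearMap.BilinForm F W}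
  {Q : QuadraticForm F (U ⊗[F] W)} {M : Subgroup ((U ⊗[F] W) ≃ₗ[F] (U ⊗[F] W))}

theorem SQ_add {w cc : W} {A B : U →ₗ[F] U} (hA : A ∈ SQ BW M w cc) (hB : B ∈ SQ BW M w cc) :
    A + B ∈ SQ BW M w cc := by
  intro κ
  have := (hA κ).add (hB κ)
  rwa [← smul_add, ← LinearMap.add_comp] at this

theorem SQ_neg {w cc : W} {A : U →ₗ[F] U} (hA : A ∈ SQ BW M w cc) : -A ∈ SQ BW M w cc := by
  intro κ
  have := (hA κ).neg
  rwa [← smul_neg, ← LinearMap.neg_comp] at this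

theorem SQ_smul {w cc : W} (k : F) {A : U →ₗ[F] U} (hA : A ∈ SQ BW M w cc) :
    k • A ∈ SQ BW M w cc := by
  intro κ
  have := hA (κ * k)
  rwa [mul_smul, ← LinearMap.smul_comp] at this

theorem SQ_conj (hU : BU.IsAlt) (hUs : HUs BU hU M) {w cc : W} {A : U →ₗ[F] U}
    (hA : A ∈ SQ BW M w cc) (z : U) (κ : F) :
    (stv BU hU z κ).toLinearMap ∘ₗ A ∘ₗ (stv BU hU z κ).symm.toLinearMap ∈ SQ BW M w cc := by
  intro κ'
  have := (hA κ').conjU hU hUs z κ
  convert this using 1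
  apply TensorProduct.ext'
  intro u y
  have hk : (rU W BU hU z κ).symm (u ⊗ₜ[F] y) = (stv BU hU z κ).symm u ⊗ₜ[F] y := by
    rw [LinearEquiv.symm_apply_eq]
    simp [rU]
  simp only [LinearMap.smul_apply, LinearMap.comp_apply, LinearEquiv.coe_coe, hk, ev_tmul,
    map_smul]

end Cfsg.Agent.Lib.Helper59.TO
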