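import Cfsg.Agent.Lib.Helper59.TO.Defs

set_option autoImplicit false

namespace Cfsg.Agent.Lib.Helper59.TO

open TensorProduct Module QuadraticMap Cfsg.Agent.Lib.Helper59.TP
open Cfsg.Agent.Lib.Helper95 (glEquiv glEquiv_apply)

theorem tl_kron {F : Type*} [Field F] (n₁ n₂ : ℕ)
    (g : Matrix.GeneralLinearGroup (Fin n₁ × Fin n₂) F) :
    g ∈ Cfsg.Geo.kroneckerSubgroup n₁ n₂ F ↔
      (t1B F n₁ n₂).equivFun.symm.symm.trans ((glEquiv g).trans (t1B F n₁ n₂).equivFun.symm)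
        ∈ NT F (Fin n₁ → F) (Fin n₂ → F) := by
  refine ⟨?_, ?_⟩
  · rintro ⟨a, b, hg⟩
    refine ⟨glEquiv a, glEquiv b, ?_⟩
    apply LinearEquiv.toLinearMap_injective
    rw [t1_conj, hg, t1_kron]
  · rintro ⟨t, s, hts⟩
    refine ⟨glEquiv.symm t, glEquiv.symm s, ?_⟩
    have h1 := congrArg LinearEquiv.toLinearMap hts
    rw [t1_conj] at h1
    have h2 := t1_kron n₁ n₂ (glEquiv.symm t) (glEquiv.symm s)
    rw [MulEquiv.apply_symm_apply, MulEquiv.apply_symm_apply, ← h1] at h2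
    exact ((Matrix.toLin (t1B F n₁ n₂) (t1B F n₁ n₂)).injective h2).symm

theorem tl_tp {F : Type*} [Field F] (n n₁ n₂ : ℕ) (e : Fin n ≃ Fin n₁ × Fin n₂)
    (P : Matrix.GeneralLinearGroup (Fin n) F)
    {V : Type*} [AddCommGroup V] [Module F V] (N : Subgroup (V ≃ₗ[F] V))
    (L₀ : (Fin n₁ × Fin n₂ → F) ≃ₗ[F] V)
    (h₀ : ∀ g : Matrix.GeneralLinearGroup (Fin n₁ × Fin n₂) F,
        g ∈ Cfsg.Geo.kroneckerSubgroup n₁ n₂ F ↔ L₀.symm.trans ((glEquiv g).trans L₀) ∈ N)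
    (g : Matrix.GeneralLinearGroup (Fin n) F) :
      g ∈ Cfsg.Geo.tensorProductSubgroup n₁ n₂ e P ↔
        ((glEquiv P⁻¹).trans ((LinearEquiv.funCongrLeft F F e.symm).trans L₀)).symm.trans
          ((glEquiv g).trans
            ((glEquiv P⁻¹).trans ((LinearEquiv.funCongrLeft F F e.symm).trans L₀))) ∈ N := by
  set L : (Fin n → F) ≃ₗ[F] V :=
    (glEquiv P⁻¹).trans ((LinearEquiv.funCongrLeft F F e.symm).trans L₀) with hL
  have hLx : ∀ x, L x = L₀ ((glEquiv P⁻¹ x) ∘ e.symm) := fun x => rfl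
  obtain ⟨k, hk⟩ : ∃ k, Cfsg.Geo.glReindex e.symm k = P⁻¹ * g * P :=
    ⟨(Cfsg.Geo.glReindex e.symm).symm (P⁻¹ * g * P), MulEquiv.apply_symm_apply _ _⟩
  have h1 : g ∈ Cfsg.Geo.tensorProductSubgroup n₁ n₂ e P ↔
      k ∈ Cfsg.Geo.kroneckerSubgroup n₁ n₂ F := by
    constructor
    · rintro ⟨_, ⟨k', hk', rfl⟩, hg⟩
      have h2 : P * Cfsg.Geo.glReindex e.symm k' * P⁻¹ = g := hg
      have h3 : Cfsg.Geo.glReindex e.symm k' = Cfsg.Geo.glReindex e.symm k := by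
        rw [hk, ← h2]
        group
      rw [← (Cfsg.Geo.glReindex e.symm).injective h3]
      exact hk'
    · intro hk'
      refine ⟨Cfsg.Geo.glReindex e.symm k, ⟨k, hk', rfl⟩, ?_⟩
      change P * Cfsg.Geo.glReindex e.symm k * P⁻¹ = g
      rw [hk]
      group
  rw [h1, h₀ k]
  have h2 : L.symm.trans ((glEquiv g).trans L) = L₀.symm.trans ((glEquiv k).trans L₀) := by
    ext v
    obtain ⟨x, rfl⟩ := L.surjective v
    simp only [LinearEquiv.trans_apply, LinearEquiv.symm_apply_apply]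
    rw [hLx, hLx, LinearEquiv.symm_apply_apply]
    congr 1
    have h3 : glEquiv P⁻¹ (glEquiv g x) = glEquiv (Cfsg.Geo.glReindex e.symm k) (glEquiv P⁻¹ x) := by
      rw [← LinearEquiv.mul_apply, ← LinearEquiv.mul_apply, ← map_mul, ← map_mul, hk]
      congr 2
      group
    rw [h3, t2_reindex]
    ext i
    simp
  rw [h2]

/-- RUNG TL. -/
theorem exists_tp_equiv' {F : Type*} [Field F] (n n₁ n₂ : ℕ) (e : Fin n ≃ Fin n₁ × Fin n₂)
    (P : Matrix.GeneralLinearGroup (Fin n) F) :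
    ∃ L : (Fin n → F) ≃ₗ[F] ((Fin n₁ → F) ⊗[F] (Fin n₂ → F)),
      (∀ g : Matrix.GeneralLinearGroup (Fin n) F, g ∈ Cfsg.Geo.tensorProductSubgroup n₁ n₂ e P ↔
        L.symm.trans ((glEquiv g).trans L) ∈ NT F (Fin n₁ → F) (Fin n₂ → F)) ∧
      ∀ (x₁ : Fin n₁ → F) (x₂ : Fin n₂ → F),
        L (Matrix.mulVec (P : Matrix (Fin n) (Fin n) F)
          ((fun a : Fin n₁ × Fin n₂ => x₁ a.1 * x₂ a.2) ∘ e)) = x₁ ⊗ₜ[F] x₂ := by
  refine ⟨(glEquiv P⁻¹).trans ((LinearEquiv.funCongrLeft F F e.symm).trans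
    (t1B F n₁ n₂).equivFun.symm), fun g => tl_tp n n₁ n₂ e P _ _ (tl_kron n₁ n₂) g, ?_⟩
  intro x₁ x₂
  have hLx : ∀ x, ((glEquiv P⁻¹).trans ((LinearEquiv.funCongrLeft F F e.symm).trans
      (t1B F n₁ n₂).equivFun.symm)) x
      = (t1B F n₁ n₂).equivFun.symm ((glEquiv P⁻¹ x) ∘ e.symm) := fun x => rfl
  rw [hLx, LinearEquiv.symm_apply_eq, glEquiv_apply, Matrix.mulVec_mulVec, ← Units.val_mul,
    inv_mul_cancel, Units.val_one, Matrix.one_mulVec]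
  ext ⟨a, b⟩
  simp [t1B, Basis.tensorProduct_repr_tmul_apply, mul_comm]

end Cfsg.Agent.Lib.Helper59.TO
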