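import Cfsg.Agent.Lib.Helper59.TO.POL

set_option autoImplicit false

namespace Cfsg.Agent.Lib.Helper59.TO

open TensorProduct Module QuadraticMap Cfsg.Agent.Lib.Helper59.TP
open Cfsg.Agent.Lib.Helper95 (stv stv_apply tvGrp isoGrp omG SPair sg sg_apply LR glEquiv)
open Cfsg.Agent.Lib.Helper49 (OG FP)
open Cfsg.Agent.Lib.Helper99.SpSub (Ind)

variable {F U W : Type*} [Field F] [AddCommGroup U] [Module F U] [AddCommGroup W] [Module F W]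
variable {BU : LinearMap.BilinForm F U} {BW : LinearMap.BilinForm F W}
  {Q : QuadraticForm F (U ⊗[F] W)} {M : Subgroup ((U ⊗[F] W) ≃ₗ[F] (U ⊗[F] W))}

theorem comm_fix (hW : BW.IsAlt) (m : (U ⊗[F] W) ≃ₗ[F] (U ⊗[F] W)) (w₁ w₂ w'' : W) (u : U)
    (h1 : BW w'' w₁ = 0)
    (h2 : ev U (psi BW w₁) (m (ev U (psi BW w₂) (m.symm (u ⊗ₜ[F] w'')) ⊗ₜ[F] w₂)) = 0) :
    (rW U BW hW w₁ 1 * (m * rW U BW hW w₂ 1 * m⁻¹) * (rW U BW hW w₁ 1)⁻¹ *
      (m * rW U BW hW w₂ 1 * m⁻¹)⁻¹) (u ⊗ₜ[F] w'') = u ⊗ₜ[F] w'' := by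
  set v := u ⊗ₜ[F] w'' with hv
  set x := ev U (psi BW w₂) (m.symm v) with hx
  have hinv : (m * rW U BW hW w₂ 1 * m⁻¹)⁻¹ = m * rW U BW hW w₂ (-1) * m⁻¹ := by
    rw [mul_inv_rev, mul_inv_rev, inv_inv, rW_inv, mul_assoc]
  have e0 : ev U (psi BW w₂) (x ⊗ₜ[F] w₂) = 0 := by simp [hW w₂]
  have e1 : (m * rW U BW hW w₂ (-1) * m⁻¹) v = v - m (x ⊗ₜ[F] w₂) := by
    rw [LinearEquiv.mul_apply, LinearEquiv.mul_apply, LinearEquiv.coe_inv, rW_apply, map_add,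
      LinearEquiv.apply_symm_apply, map_smul, ← hx]
    module
  have e2 : ev U (psi BW w₁) v = 0 := by simp [hv, h1]
  have e3 : rW U BW hW w₁ (-1) (v - m (x ⊗ₜ[F] w₂)) = v - m (x ⊗ₜ[F] w₂) := by
    rw [rW_apply, map_sub, e2, h2]
    simp
  have e4 : (m * rW U BW hW w₂ 1 * m⁻¹) (v - m (x ⊗ₜ[F] w₂)) = v := by
    rw [LinearEquiv.mul_apply, LinearEquiv.mul_apply, LinearEquiv.coe_inv, rW_apply, map_sub,
      LinearEquiv.symm_apply_apply, map_sub, ← hx, e0, map_add, map_sub,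
      LinearEquiv.apply_symm_apply, map_smul]
    simp
  have e5 : rW U BW hW w₁ 1 v = v := by
    rw [rW_apply, e2]
    simp
  rw [hinv, rW_inv, LinearEquiv.mul_apply, LinearEquiv.mul_apply, LinearEquiv.mul_apply, e1, e3, e4,
    e5]

end Cfsg.Agent.Lib.Helper59.TO
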