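import Cfsg.Agent.Lib.Helper59.TO.Defs

set_option autoImplicit false

namespace Cfsg.Agent.Lib.Helper59.TO

open TensorProduct Module QuadraticMap Cfsg.Agent.Lib.Helper59.TP
open Cfsg.Agent.Lib.Helper95 (stv stv_apply tvGrp isoGrp omG SPair sg sg_apply LR glEquiv)
open Cfsg.Agent.Lib.Helper49 (OG FP)
open Cfsg.Agent.Lib.Helper99.SpSub (Ind)
open scoped commutatorElement

/-- Conjugation by a linear equivalence, as a group isomorphism. -/
private def transPhi {F V₀ V : Type*} [Field F] [AddCommGroup V₀] [Module F V₀] [AddCommGroup V]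
    [Module F V] (L : V₀ ≃ₗ[F] V) : (V₀ ≃ₗ[F] V₀) ≃* (V ≃ₗ[F] V) where
  toFun g := L.symm.trans (g.trans L)
  invFun g := L.trans (g.trans L.symm)
  left_inv g := by
    ext x
    simp
  right_inv g := by
    ext x
    simp
  map_mul' a b := by
    ext x
    simp [LinearEquiv.mul_apply]

theorem maximal_of_equiv' {F : Type*} [Field F] {n : ℕ} {V : Type*} [AddCommGroup V] [Module F V]
    (Q₀ : QuadraticForm F (Fin n → F)) (Q' : QuadraticForm F V) (L : (Fin n → F) ≃ₗ[F] V)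
    (hQ : ∀ x, Q' (L x) = Q₀ x) (S : Subgroup (Matrix.GeneralLinearGroup (Fin n) F))
    (N : Subgroup (V ≃ₗ[F] V)) (hS : ∀ g, g ∈ S ↔ L.symm.trans ((glEquiv g).trans L) ∈ N)
    (hprop : ∃ g ∈ omG Q', g ∉ N)
    (core : ∀ M : Subgroup (V ≃ₗ[F] V), N ⊓ omG Q' ≤ M → M ≤ omG Q' → (∃ g ∈ M, g ∉ N) →
      omG Q' ≤ M) :
    Cfsg.Geo.IsMaximalIn (Cfsg.Geo.omegaGL ⇑Q₀) (S ⊓ Cfsg.Geo.omegaGL ⇑Q₀) := by
  have hQ1 : Q₀ = Cfsg.Agent.Lib.Helper17.TensorOmega.pullQ L Q' := by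
    ext x
    exact (hQ x).symm
  have hQ2 : Q' = Cfsg.Agent.Lib.Helper17.TensorOmega.pullQ L.symm Q₀ := by
    ext x
    rw [Cfsg.Agent.Lib.Helper17.TensorOmega.pullQ_apply, ← hQ, LinearEquiv.apply_symm_apply]
  have hfw : ∀ g : (Fin n → F) ≃ₗ[F] (Fin n → F), g ∈ omG Q₀ → transPhi L g ∈ omG Q' := by
    intro g hg
    rw [hQ1] at hg
    have := Cfsg.Agent.Lib.Helper17.TensorOmega.conj_mem_omG L Q' hg
    have h2 : transPhi L g = (L.symm.trans g).trans L := by
      ext x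
      rfl
    rw [h2]
    exact this
  have hbw : ∀ g : V ≃ₗ[F] V, g ∈ omG Q' → (transPhi L).symm g ∈ omG Q₀ := by
    intro g hg
    rw [hQ2] at hg
    have := Cfsg.Agent.Lib.Helper17.TensorOmega.conj_mem_omG L.symm Q₀ hg
    have h2 : (transPhi L).symm g = (L.symm.symm.trans g).trans L.symm := by
      ext x
      rfl
    rw [h2]
    exact this
  have hiff : ∀ g : (Fin n → F) ≃ₗ[F] (Fin n → F), g ∈ omG Q₀ ↔ transPhi L g ∈ omG Q' := by
    intro g
    refine ⟨hfw g, fun h => ?_⟩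
    have := hbw _ h
    rwa [MulEquiv.symm_apply_apply] at this
  refine Cfsg.Agent.Lib.Helper95.isMaximalIn_transfer (K' := omG Q₀)
    (S' := N.comap (transPhi L).toMonoidHom) (Cfsg.Agent.Lib.Helper95.mem_omegaGL_iff Q₀)
    (fun g => hS g) ?_ ?_
  · obtain ⟨g, hg, hgN⟩ := hprop
    refine ⟨(transPhi L).symm g, hbw g hg, ?_⟩
    intro h
    apply hgN
    have h1 : transPhi L ((transPhi L).symm g) ∈ N := h
    rwa [MulEquiv.apply_symm_apply] at h1
  · intro M' h1 h2 g hg hgS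
    have key := core (M'.map (transPhi L).toMonoidHom) ?_ ?_ ?_
    · intro x hx
      obtain ⟨y, hy, hyx⟩ := key (hfw x hx)
      have : y = x := (transPhi L).injective hyx
      rwa [← this]
    · intro x hx
      refine ⟨(transPhi L).symm x, h1 ⟨hbw x hx.2, ?_⟩, ?_⟩
      · change transPhi L ((transPhi L).symm x) ∈ N
        rw [MulEquiv.apply_symm_apply]
        exact hx.1
      · exact MulEquiv.apply_symm_apply _ _
    · rintro _ ⟨y, hy, rfl⟩
      exact hfw y (h2 hy)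
    · exact ⟨transPhi L g, ⟨g, hg, rfl⟩, hgS⟩

end Cfsg.Agent.Lib.Helper59.TO
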