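import Cfsg.Agent.Lib.Helper59.TO.Defs

set_option autoImplicit false

namespace Cfsg.Agent.Lib.Helper59.TO

open TensorProduct Module QuadraticMap Cfsg.Agent.Lib.Helper59.TP

variable {F U W : Type*} [Field F] [AddCommGroup U] [Module F U] [AddCommGroup W] [Module F W]

/-- RUNG TRB. -/
theorem exists_big_kernel [FiniteDimensional F U] [FiniteDimensional F W]
    (hab : finrank F U + 2 ≤ finrank F W) (Θ : U →ₗ[F] U) (G : U ⊗[F] W →ₗ[F] U) (φ₁ : Dual F W)
    (d : ℕ) (hd : d ≤ finrank F (LinearMap.ker Θ)) (hda : d < finrank F U) :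
    ∃ w'' : W, w'' ≠ 0 ∧ φ₁ w'' = 0 ∧
      d + 1 ≤ finrank F (LinearMap.ker (Θ ∘ₗ G ∘ₗ ins F U w'')) := by
  classical
  -- choice of `η`
  obtain ⟨η, hη⟩ : ∃ η : Dual F U, Θ = 0 ∨ ∃ u, η (Θ u) ≠ 0 := by
    by_cases h0 : Θ = 0
    · exact ⟨0, Or.inl h0⟩
    · obtain ⟨u, hu⟩ : ∃ u, Θ u ≠ 0 := by
        by_contra hcon
        push Not at hcon
        exact h0 (LinearMap.ext hcon)
      obtain ⟨η, hη⟩ : ∃ η : Dual F U, η (Θ u) ≠ 0 := by
        by_contra hcon
        push Not at hcon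
        exact hu ((Module.forall_dual_apply_eq_zero_iff F (Θ u)).mp hcon)
      exact ⟨η, Or.inr ⟨u, hη⟩⟩
  let Φ₂ : W →ₗ[F] Dual F U := (TensorProduct.mk F U W).flip.compr₂ (η ∘ₗ Θ ∘ₗ G)
  let Φ : W →ₗ[F] F × Dual F U := φ₁.prod Φ₂
  have hfin : finrank F (F × Dual F U) < finrank F W := by
    rw [Module.finrank_prod, Module.finrank_self, Subspace.dual_finrank_eq]
    omega
  have hker : LinearMap.ker Φ ≠ ⊥ := LinearMap.ker_ne_bot_of_finrank_lt hfin
  obtain ⟨w, hw, hw0⟩ := (Submodule.ne_bot_iff _).mp hker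
  have hw' : Φ w = 0 := hw
  have h1 : φ₁ w = 0 := congrArg Prod.fst hw'
  have h2 : Φ₂ w = 0 := congrArg Prod.snd hw'
  have h3 : ∀ u, η (Θ (G (u ⊗ₜ[F] w))) = 0 := fun u => by
    have := LinearMap.congr_fun h2 u
    simpa [Φ₂] using this
  refine ⟨w, hw0, h1, ?_⟩
  set T : U →ₗ[F] U := Θ ∘ₗ G ∘ₗ ins F U w with hT
  have hrnT := LinearMap.finrank_range_add_finrank_ker T
  have hrnΘ := LinearMap.finrank_range_add_finrank_ker Θ
  rcases hη with h0 | ⟨u, hu⟩
  · have hT0 : T = 0 := by rw [hT, h0, LinearMap.zero_comp]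
    rw [hT0, LinearMap.ker_zero, finrank_top]
    omega
  · have hle : LinearMap.range T ≤ LinearMap.range Θ := by
      rw [hT]
      exact LinearMap.range_comp_le_range _ _
    have hne : LinearMap.range T ≠ LinearMap.range Θ := by
      intro heq
      have hmem : Θ u ∈ LinearMap.range T := by
        rw [heq]
        exact LinearMap.mem_range_self _ _
      obtain ⟨v, hv⟩ := hmem
      apply hu
      rw [← hv]
      exact h3 v
    have hlt := Submodule.finrank_lt_finrank_of_lt (lt_of_le_of_ne hle hne)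
    omega

end Cfsg.Agent.Lib.Helper59.TO
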