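import Cfsg.Agent.Lib.Helper59.TO.POL
import Cfsg.Agent.Lib.Helper59.TO.TRA
import Cfsg.Agent.Lib.Helper59.TO.TRB

set_option autoImplicit false

namespace Cfsg.Agent.Lib.Helper59.TO

open TensorProduct Module QuadraticMap Cfsg.Agent.Lib.Helper59.TP
open Cfsg.Agent.Lib.Helper95 (stv stv_apply tvGrp isoGrp omG SPair sg sg_apply LR glEquiv)
open Cfsg.Agent.Lib.Helper49 (OG FP)
open Cfsg.Agent.Lib.Helper99.SpSub (Ind)

variable {F U W : Type*} [Field F] [AddCommGroup U] [Module F U] [AddCommGroup W] [Module F W]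
variable {BU : LinearMap.BilinForm F U} {BW : LinearMap.BilinForm F W}
  {Q : QuadraticForm F (U ⊗[F] W)} {M : Subgroup ((U ⊗[F] W) ≃ₗ[F] (U ⊗[F] W))}

theorem trick_step [FiniteDimensional F U] [FiniteDimensional F W] (hW : BW.IsAlt)
    (hab : finrank F U + 2 ≤ finrank F W) (hWs : HWs BW hW M)
    (k2 : ∀ (w₁ w₂ : W), w₁ ≠ 0 → w₂ ≠ 0 → ∀ m ∈ M,
      (II F U w₁).map m.toLinearMap = II F U w₂ → m ∈ NT F U W)
    (k3 : ∀ m ∈ M, m ∉ NT F U W → ∀ (w : W) (κ : F), w ≠ 0 → κ ≠ 0 →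
      m⁻¹ * rW U BW hW w κ * m ∉ NT F U W)
    {m : (U ⊗[F] W) ≃ₗ[F] (U ⊗[F] W)} (hm : m ∈ M) (hmN : m ∉ NT F U W) {w₁ w₂ : W}
    (h1 : w₁ ≠ 0) (h2 : w₂ ≠ 0) :
    ∃ m' ∈ M, m' ∉ NT F U W ∧ ∃ w'' : W, w'' ≠ 0 ∧
      finrank F ↥(II F U w₁ ⊓ (II F U w₂).map m.toLinearMap) <
        finrank F ↥(II F U w'' ⊓ (II F U w'').map m'.toLinearMap) := by
  set I := II F U w₁ with hI
  set J := (II F U w₂).map m.toLinearMap with hJdef
  set d := finrank F ↥(I ⊓ J) with hd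
  have hJ : finrank F J = finrank F U := by
    rw [hJdef, LinearEquiv.finrank_map_eq, finrank_II h2]
  have hda : d < finrank F U := by
    by_contra hcon
    have h1' : I ⊓ J = I :=
      Submodule.eq_of_le_of_finrank_le inf_le_left (by
        have : finrank F I = finrank F U := finrank_II h1
        omega)
    have h2' : I ⊓ J = J := Submodule.eq_of_le_of_finrank_le inf_le_right (by rw [hJ]; omega)
    exact hmN (k2 w₂ w₁ h2 h1 m hm (h2'.symm.trans h1'))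
  let Θ : U →ₗ[F] U := ev U (psi BW w₁) ∘ₗ m.toLinearMap ∘ₗ ins F U w₂
  let G : U ⊗[F] W →ₗ[F] U := ev U (psi BW w₂) ∘ₗ m.symm.toLinearMap
  have hker : d ≤ finrank F (LinearMap.ker Θ) := by
    let f : U →ₗ[F] U ⊗[F] W := m.toLinearMap ∘ₗ ins F U w₂
    have hf : Function.Injective f := m.injective.comp (ins_injective h2)
    have hle : I ⊓ J ≤ (LinearMap.ker Θ).map f := by
      rintro v ⟨hvI, hvJ⟩
      obtain ⟨_, ⟨x, rfl⟩, rfl⟩ := hvJ
      refine ⟨x, ?_, rfl⟩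
      obtain ⟨u, hu⟩ := hvI
      have hu' : m (ins F U w₂ x) = u ⊗ₜ[F] w₁ := hu.symm
      show ev U (psi BW w₁) (m (ins F U w₂ x)) = 0
      rw [hu']
      simp [hW w₁]
    calc d ≤ finrank F ((LinearMap.ker Θ).map f) := Submodule.finrank_mono hle
      _ = finrank F (LinearMap.ker Θ) := (Submodule.equivMapOfInjective f hf _).finrank_eq.symm
  obtain ⟨w'', hw'', hφ, hbig⟩ := exists_big_kernel hab Θ G (psi BW w₁) d hker hda
  set tI := rW U BW hW w₁ 1 with htI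
  set tJ := m * rW U BW hW w₂ 1 * m⁻¹ with htJ
  have htIM : tI ∈ M := hWs _ _
  have htJM : tJ ∈ M := M.mul_mem (M.mul_mem hm (hWs _ _)) (M.inv_mem hm)
  have htJN : tJ ∉ NT F U W := by
    have := k3 m⁻¹ (M.inv_mem hm) (fun h => hmN (by simpa using (NT F U W).inv_mem h)) w₂ 1 h2
      one_ne_zero
    rwa [inv_inv] at this
  have hcN : tJ * tI⁻¹ * tJ⁻¹ ∉ NT F U W := by
    have := k3 tJ⁻¹ (M.inv_mem htJM) (fun h => htJN (by simpa using (NT F U W).inv_mem h)) w₁ (-1)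
      h1 (neg_ne_zero.2 one_ne_zero)
    rwa [inv_inv, ← rW_inv] at this
  refine ⟨tI * tJ * tI⁻¹ * tJ⁻¹,
    M.mul_mem (M.mul_mem (M.mul_mem htIM htJM) (M.inv_mem htIM)) (M.inv_mem htJM), ?_, w'', hw'', ?_⟩
  · intro h
    apply hcN
    have : tJ * tI⁻¹ * tJ⁻¹ = tI⁻¹ * (tI * tJ * tI⁻¹ * tJ⁻¹) := by group
    rw [this]
    exact (NT F U W).mul_mem ((NT F U W).inv_mem (rW_mem_NT hW w₁ 1)) h
  · have hle : (LinearMap.ker (Θ ∘ₗ G ∘ₗ ins F U w'')).map (ins F U w'') ≤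
        II F U w'' ⊓ (II F U w'').map (tI * tJ * tI⁻¹ * tJ⁻¹).toLinearMap := by
      rintro _ ⟨u, hu, rfl⟩
      have hfix : (tI * tJ * tI⁻¹ * tJ⁻¹) (u ⊗ₜ[F] w'') = u ⊗ₜ[F] w'' :=
        comm_fix hW m w₁ w₂ w'' u hφ hu
      exact ⟨tmul_mem_II U w'' u, ⟨u ⊗ₜ[F] w'', tmul_mem_II U w'' u, hfix⟩⟩
    have h3 := Submodule.finrank_mono hle
    rw [← (Submodule.equivMapOfInjective (ins F U w'') (ins_injective hw'') _).finrank_eq] at h3
    omega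

end Cfsg.Agent.Lib.Helper59.TO
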