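import Cfsg.Agent.Lib.Helper59.TO.Defs

set_option autoImplicit false

namespace Cfsg.Agent.Lib.Helper59.TO

open TensorProduct Module QuadraticMap Cfsg.Agent.Lib.Helper59.TP
open Cfsg.Agent.Lib.Helper95 (stv stv_apply tvGrp isoGrp omG SPair sg sg_apply LR glEquiv)
open Cfsg.Agent.Lib.Helper49 (OG FP)
open Cfsg.Agent.Lib.Helper99.SpSub (Ind)

variable {F U W : Type*} [Field F] [AddCommGroup U] [Module F U] [AddCommGroup W] [Module F W]
variable {BU : LinearMap.BilinForm F U} {BW : LinearMap.BilinForm F W}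
  {Q : QuadraticForm F (U ⊗[F] W)} {M : Subgroup ((U ⊗[F] W) ≃ₗ[F] (U ⊗[F] W))}

theorem trick_false [FiniteDimensional F U] [FiniteDimensional F W]
    (step : ∀ m ∈ M, m ∉ NT F U W → ∀ w₁ w₂ : W, w₁ ≠ 0 → w₂ ≠ 0 →
      ∃ m' ∈ M, m' ∉ NT F U W ∧ ∃ w'' : W, w'' ≠ 0 ∧
        finrank F ↥(II F U w₁ ⊓ (II F U w₂).map m.toLinearMap) <
          finrank F ↥(II F U w'' ⊓ (II F U w'').map m'.toLinearMap))
    (hne : ∃ m ∈ M, m ∉ NT F U W) (hW0 : ∃ w : W, w ≠ 0) : False := by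
  have key : ∀ k : ℕ, ∃ m ∈ M, m ∉ NT F U W ∧ ∃ w₁ w₂ : W, w₁ ≠ 0 ∧ w₂ ≠ 0 ∧
      k ≤ finrank F ↥(II F U w₁ ⊓ (II F U w₂).map m.toLinearMap) := by
    intro k
    induction k with
    | zero =>
      obtain ⟨m, hm, hmN⟩ := hne
      obtain ⟨w, hw⟩ := hW0
      exact ⟨m, hm, hmN, w, w, hw, hw, Nat.zero_le _⟩
    | succ k ih =>
      obtain ⟨m, hm, hmN, w₁, w₂, h1, h2, hk⟩ := ih
      obtain ⟨m', hm', hmN', w'', hw'', hlt⟩ := step m hm hmN w₁ w₂ h1 h2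
      exact ⟨m', hm', hmN', w'', w'', hw'', hw'', by omega⟩
  obtain ⟨m, -, -, w₁, w₂, h1, -, hk⟩ := key (finrank F U + 1)
  have h3 : finrank F ↥(II F U w₁ ⊓ (II F U w₂).map m.toLinearMap) ≤ finrank F (II F U w₁) :=
    Submodule.finrank_mono inf_le_left
  rw [finrank_II h1] at h3
  omega

end Cfsg.Agent.Lib.Helper59.TO
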