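import Cfsg.Agent.Lib.Helper59.TO.POL
import Cfsg.Agent.Lib.Helper59.TO.ISO
import Cfsg.Agent.Lib.Helper59.TO.ROOT
import Cfsg.Agent.Lib.Helper59.TO.ROOTS
import Cfsg.Agent.Lib.Helper59.TO.TV
import Cfsg.Agent.Lib.Helper59.TO.C1A
import Cfsg.Agent.Lib.Helper59.TO.C1B
import Cfsg.Agent.Lib.Helper59.TO.G0
import Cfsg.Agent.Lib.Helper59.TO.QXC
import Cfsg.Agent.Lib.Helper59.TO.SSET
import Cfsg.Agent.Lib.Helper59.TO.C2A
import Cfsg.Agent.Lib.Helper59.TO.C2L2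
import Cfsg.Agent.Lib.Helper59.TO.C2L4
import Cfsg.Agent.Lib.Helper59.TO.C2LC
import Cfsg.Agent.Lib.Helper59.TO.CLEAN
import Cfsg.Agent.Lib.Helper59.TO.SGC
import Cfsg.Agent.Lib.Helper59.TO.C2D1
import Cfsg.Agent.Lib.Helper59.TO.C2D2A
import Cfsg.Agent.Lib.Helper59.TO.C2D2B
import Cfsg.Agent.Lib.Helper59.TO.GA
import Cfsg.Agent.Lib.Helper59.TO.G1
import Cfsg.Agent.Lib.Helper59.TO.G2
import Cfsg.Agent.Lib.Helper59.TO.G3
import Cfsg.Agent.Lib.Helper59.TO.G4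
import Cfsg.Agent.Lib.Helper59.TO.KA
import Cfsg.Agent.Lib.Helper59.TO.KB
import Cfsg.Agent.Lib.Helper59.TO.KC
import Cfsg.Agent.Lib.Helper59.TO.KD
import Cfsg.Agent.Lib.Helper59.TO.SEXT
import Cfsg.Agent.Lib.Helper59.TO.K0
import Cfsg.Agent.Lib.Helper59.TO.K0A
import Cfsg.Agent.Lib.Helper59.TO.KE1
import Cfsg.Agent.Lib.Helper59.TO.KE2
import Cfsg.Agent.Lib.Helper59.TO.K2
import Cfsg.Agent.Lib.Helper59.TO.TRA
import Cfsg.Agent.Lib.Helper59.TO.TRB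
import Cfsg.Agent.Lib.Helper59.TO.TRC
import Cfsg.Agent.Lib.Helper59.TO.TRD
import Cfsg.Agent.Lib.Helper59.TO.PROP
import Cfsg.Agent.Lib.Helper59.TO.TL
import Cfsg.Agent.Lib.Helper59.TO.CTX
import Cfsg.Agent.Lib.Helper59.TO.TRANS

set_option autoImplicit false

/-! Assembly of the S5704 ladder "TO". -/

namespace Cfsg.Agent.Lib.Helper59.TO

open TensorProduct Module QuadraticMap Cfsg.Agent.Lib.Helper59.TP
open Cfsg.Agent.Lib.Helper95 (stv stv_apply tvGrp isoGrp omG SPair sg sg_apply LR glEquiv)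
open Cfsg.Agent.Lib.Helper49 (OG FP)
open Cfsg.Agent.Lib.Helper99.SpSub (Ind)
open scoped commutatorElement

variable {F U W : Type*} [Field F] [AddCommGroup U] [Module F U] [AddCommGroup W] [Module F W]
variable {BU : LinearMap.BilinForm F U} {BW : LinearMap.BilinForm F W}
  {Q : QuadraticForm F (U ⊗[F] W)} {M : Subgroup ((U ⊗[F] W) ≃ₗ[F] (U ⊗[F] W))}

theorem even_finrank {X : Type*} [AddCommGroup X] [Module F X] [FiniteDimensional F X]
    {B : LinearMap.BilinForm F X} (hB : B.IsAlt) (hnd : B.Nondegenerate) : Even (finrank F X) := by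
  have := Cfsg.Agent.Lib.Helper99.even_finrank_of_nondegOn hB
    (Cfsg.Agent.Lib.Helper99.SpSub.nondegOn_top hnd)
  rwa [finrank_top] at this

/-- generation from `TA`. -/
theorem omG_le_of_TA [Fintype F] [FiniteDimensional F U] [FiniteDimensional F W]
    (c : Ctx BU BW Q) (hd : 8 < finrank F (U ⊗[F] W)) (hb : 4 < finrank F W) (hTA : TA BW Q M) :
    omG Q ≤ M := by
  have hG1 := G1 c hb hTA
  have hG2 := G2 c hb hTA hG1
  exact G4 c hd (G3 c hG1 hG2)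

/-- the case `¬ S2`. -/
theorem TA_of_not_S2 [Fintype F] [FiniteDimensional F U] [FiniteDimensional F W]
    (c : Ctx BU BW Q) (hb : 5 ≤ finrank F W) (hex : ¬ (Fintype.card F = 2 ∧ finrank F U = 2))
    (hMO : M ≤ OG Q) (hUs : HUs BU c.altU M) (hWs : HWs BW c.altW M) (h : ¬ S2 BW M) :
    TA BW Q M := by
  obtain ⟨w, cc, A, hind, hcw, hns, hA⟩ := exists_nonscalar_of_not_S2 c hWs h
  have key : ∃ (z₀ : U) (w₀ w₀' : W), z₀ ≠ 0 ∧ Ind F w₀ w₀' ∧ BW w₀ w₀' = 0 ∧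
      LRM Q M (z₀ ⊗ₜ[F] w₀) (z₀ ⊗ₜ[F] w₀') := by
    rcases exists_special c.altU c.ndU hex (SQ BW M w cc) (fun _ hA _ hB => SQ_add hA hB)
      (fun _ hA => SQ_neg hA) (fun k _ hA => SQ_smul k hA)
      (fun _ hA z κ => SQ_conj c.altU hUs hA z κ) A hA hns with ⟨z, hz, hzS⟩ | ⟨z, z', β, hzi, hzz, hS⟩
    · have h1 := hzS 1
      rw [one_smul] at h1
      exact typeA_of_EE c hMO hWs hz hind hcw h1
    · have h1 := hS 1
      rw [one_smul] at h1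
      obtain ⟨c', h₁, h₂, hi', hw', hm⟩ := exists_clean_pair c hMO hWs hzz hind hcw h1
      exact typeA_of_pair hb c hMO hUs hWs hzi hzz hi' hw' h₁ h₂ hm
  obtain ⟨z₀, w₀, w₀', hz, hi, h0, hL⟩ := key
  exact TA_of_typeA c hUs hWs hz hi h0 hL

/-- the case `¬ S1`. -/
theorem TA_of_not_S1 (c : Ctx BU BW Q) (hMO : M ≤ OG Q) (hUs : HUs BU c.altU M)
    (hWs : HWs BW c.altW M) (h : ¬ S1 BW M) : TA BW Q M := by
  obtain ⟨z, y, w, hind, hzy, hw, hL⟩ := typeB_of_not_S1 c hMO hUs h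
  exact TA_of_typeB c hUs hWs hind hzy hw hL

/-- `k1`. -/
theorem stab_le_NT' [Fintype F] [FiniteDimensional F U] [FiniteDimensional F W]
    (c : Ctx BU BW Q) (hd : 5 ≤ finrank F (U ⊗[F] W)) (hU0 : ∃ u : U, u ≠ 0)
    (hM : NT F U W ⊓ omG Q ≤ M) (hMo : M ≤ omG Q) (hWs : HWs BW c.altW M) (hS1 : S1 BW M)
    (hS2 : S2 BW M) {w : W} (hw : w ≠ 0) {g : (U ⊗[F] W) ≃ₗ[F] (U ⊗[F] W)} (hg : g ∈ M)
    (hgw : (II F U w).map g.toLinearMap = II F U w) : g ∈ NT F U W := by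
  have hMO : M ≤ OG Q := hMo.trans omG_le
  obtain ⟨C, μ, hμ, hC, hsim, hev⟩ := exists_sim_of_stab c hMO hWs hS1 hU0 hw hg hgw
  have hperp : ∀ v, ev U (psi BW w) v = 0 → ev U (psi BW w) (g v) = 0 := by
    intro v hv
    rw [hev, hv]
    simp
  have hKC := fun (cc : W) (hcc : BW cc w = 0) => exists_c_of_stab c hWs hS2 hw hg C hC hperp hcc
  obtain ⟨s₀, h1, h2, h3, h4⟩ := exists_s0 c hU0 hw (hMO hg) C μ hμ hC hsim hev hKC
  obtain ⟨s, hsw, hss, hs⟩ := exists_sim_ext c.altW c.ndW hw μ⁻¹ (inv_ne_zero hμ) s₀ h1 h2 h3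
  obtain ⟨h, hN, hO, hfix, hrad⟩ := exists_NT_factor c C μ hμ hC hsim s₀ h4 s hsw hss hs
  have hyO : h⁻¹ * g ∈ OG Q := (OG Q).mul_mem ((OG Q).inv_mem hO) (hMO hg)
  have hyo : h⁻¹ * g ∈ omG Q := mem_omG_of_radical c hd hw hyO hfix hrad
  have hho : h ∈ omG Q := by
    have : h = g * (h⁻¹ * g)⁻¹ := by group
    rw [this]
    exact (omG Q).mul_mem (hMo hg) ((omG Q).inv_mem hyo)
  have hhM : h ∈ M := hM ⟨hN, hho⟩
  have hyM : h⁻¹ * g ∈ M := M.mul_mem (M.inv_mem hhM) hg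
  have hyN := radical_mem_NT c hMO hWs hS1 hS2 hw hyM hfix hrad
  have : g = h * (h⁻¹ * g) := by group
  rw [this]
  exact (NT F U W).mul_mem hN hyN

/-- The core: an overgroup of `NT ⊓ Ω` in `Ω` not contained in `NT` is `Ω`. -/
theorem core [Fintype F] [FiniteDimensional F U] [FiniteDimensional F W] (c : Ctx BU BW Q)
    (hab : finrank F U < finrank F W) (hn : 13 ≤ finrank F U * finrank F W)
    (hex : ¬ (Fintype.card F = 2 ∧ finrank F U = 2))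
    (M : Subgroup ((U ⊗[F] W) ≃ₗ[F] (U ⊗[F] W))) (hM : NT F U W ⊓ omG Q ≤ M) (hMo : M ≤ omG Q)
    (hne : ∃ g ∈ M, g ∉ NT F U W) : omG Q ≤ M := by
  have hfr : finrank F (U ⊗[F] W) = finrank F U * finrank F W := finrank_tensorProduct ..
  have hd : 13 ≤ finrank F (U ⊗[F] W) := by rw [hfr]; exact hn
  have hMO : M ≤ OG Q := hMo.trans omG_le
  have hWs : HWs BW c.altW M := fun w κ =>
    hM ⟨rW_mem_NT c.altW w κ, rW_mem_omG c (by omega) w κ⟩
  have hUs : HUs BU c.altU M := fun z κ =>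
    hM ⟨rU_mem_NT c.altU z κ, rU_mem_omG c (by omega) z κ⟩
  obtain ⟨a, ha⟩ := even_finrank c.altU c.ndU
  obtain ⟨b, hb⟩ := even_finrank c.altW c.ndW
  have hab2 : finrank F U + 2 ≤ finrank F W := by omega
  have ha0 : 0 < finrank F U := by
    rcases Nat.eq_zero_or_pos (finrank F U) with h | h
    · rw [h] at hn; omega
    · exact h
  have hb5 : 5 ≤ finrank F W := by
    by_contra hcon
    have h4 : finrank F W ≤ 4 := by omega
    have h2 : finrank F U ≤ 2 := by omega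
    have : finrank F U * finrank F W ≤ 2 * 4 := Nat.mul_le_mul h2 h4
    omega
  by_cases hS1 : S1 BW M
  swap
  · exact omG_le_of_TA c (by omega) (by omega) (TA_of_not_S1 c hMO hUs hWs hS1)
  by_cases hS2 : S2 BW M
  swap
  · exact omG_le_of_TA c (by omega) (by omega) (TA_of_not_S2 c hb5 hex hMO hUs hWs hS2)
  exfalso
  have hU0 : ∃ u : U, u ≠ 0 := by
    have : Nontrivial U := Module.nontrivial_of_finrank_pos (R := F) ha0
    exact exists_ne 0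
  have hW0 : ∃ w : W, w ≠ 0 := by
    have : Nontrivial W := Module.nontrivial_of_finrank_pos (R := F) (by omega)
    exact exists_ne 0
  have k1 : ∀ (w : W), w ≠ 0 → ∀ y ∈ M, (II F U w).map y.toLinearMap = II F U w →
      y ∈ NT F U W := fun w hw y hy hyw =>
    stab_le_NT' c (by omega) hU0 hM hMo hWs hS1 hS2 hw hy hyw
  have k2 : ∀ (w₁ w₂ : W), w₁ ≠ 0 → w₂ ≠ 0 → ∀ m ∈ M,
      (II F U w₁).map m.toLinearMap = II F U w₂ → m ∈ NT F U W := fun w₁ w₂ h1 h2 m hm h =>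
    mem_NT_of_map_II' c hUs hWs k1 h1 h2 hm h
  have k3 : ∀ m ∈ M, m ∉ NT F U W → ∀ (w : W) (κ : F), w ≠ 0 → κ ≠ 0 →
      m⁻¹ * rW U BW c.altW w κ * m ∉ NT F U W := by
    intro m hm hmN w κ hw hκ
    have hψ : κ • BW.flip w ≠ 0 := by
      intro h0
      obtain ⟨w', hw'⟩ := exists_flip_one c.altW c.ndW hw
      have := LinearMap.congr_fun h0 w'
      simp [hw'] at this
      exact hκ this
    exact conj_root_not_mem hab k2 hm hmN hw hψ (by simp [c.altW w])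
  exact trick_false (fun m hm hmN w₁ w₂ h1 h2 => trick_step c.altW hab2 hWs k2 k3 hm hmN h1 h2)
    hne hW0

/-- The statement S5704. -/
theorem main {F : Type*} [Field F] [Fintype F] {n : ℕ} (hn : 13 ≤ n) (Q : (Fin n → F) → F)
    (hQ : Cfsg.Geo.IsNondegenerateQuadraticForm Q) (n₁ n₂ : ℕ) (h12 : n₁ < n₂)
    (hex : ¬ (Fintype.card F = 2 ∧ n₁ = 2)) (e : (Fin n) ≃ Fin n₁ × Fin n₂)
    (P : Matrix.GeneralLinearGroup (Fin n) F) (f₁ : (Fin n₁ → F) → (Fin n₁ → F) → F)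
    (f₂ : (Fin n₂ → F) → (Fin n₂ → F) → F) (hf₁ : Cfsg.Geo.IsSymplecticForm f₁)
    (hf₂ : Cfsg.Geo.IsSymplecticForm f₂)
    (hT : Cfsg.Geo.IsTensorFormStructure id (QuadraticMap.polar Q) f₁ f₂ e P)
    (hpure : (∀ (x₁ : Fin n₁ → F) (x₂ : Fin n₂ → F),
      Q (Matrix.mulVec (P : Matrix (Fin n) (Fin n) F)
        ((fun a : Fin n₁ × Fin n₂ => x₁ a.1 * x₂ a.2) ∘ e)) = 0)) :
    Cfsg.Geo.IsMaximalIn (Cfsg.Geo.omegaGL Q)
      (Cfsg.Geo.tensorProductSubgroup n₁ n₂ e P ⊓ Cfsg.Geo.omegaGL Q) := by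
  obtain ⟨L, hL1, hL2⟩ := exists_tp_equiv' n n₁ n₂ e P
  obtain ⟨BU, BW, Q', c, hQ'⟩ := exists_ctx Q hQ e P f₁ f₂ hf₁ hf₂ hT hpure L hL2
  have hcard : n = n₁ * n₂ := by
    have := Fintype.card_congr e
    simpa using this
  have h1 : finrank F (Fin n₁ → F) = n₁ := by simp
  have h2 : finrank F (Fin n₂ → F) = n₂ := by simp
  have hfr : finrank F ((Fin n₁ → F) ⊗[F] (Fin n₂ → F)) = n₁ * n₂ := by
    rw [finrank_tensorProduct, h1, h2]
  obtain ⟨a, ha⟩ := even_finrank c.altU c.ndU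
  have ha2 : 2 ≤ n₁ := by
    rw [h1] at ha
    rcases Nat.eq_zero_or_pos n₁ with h | h
    · rw [h] at hcard; omega
    · omega
  exact maximal_of_equiv' (Cfsg.Agent.Lib.Helper95.qfOf Q hQ) Q' L hQ'
    (Cfsg.Geo.tensorProductSubgroup n₁ n₂ e P) (NT F (Fin n₁ → F) (Fin n₂ → F)) hL1
    (exists_not_mem_NT' c (by rw [hfr]; omega) (by rw [h1]; exact ha2) (by rw [h1, h2]; exact h12))
    (fun M hM hMo hne => core c (by rw [h1, h2]; exact h12) (by rw [h1, h2]; omega)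
      (by rw [h1]; exact hex) M hM hMo hne)

end Cfsg.Agent.Lib.Helper59.TO
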